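import Mathlib

/-!
# Quaternion coordinates for the elements of order three of a Frobenius complement
-/

set_option autoImplicit false
set_option linter.unusedSimpArgs false
set_option linter.style.longLine false

namespace Cfsg.Agent.L0.Frob

/-- Quaternions over a non-commutative ring. -/
@[ext] structure NQ (B : Type*) where
  /-- coordinate -/
  c₀ : B
  /-- coordinate -/
  c₁ : B
  /-- coordinate -/
  c₂ : B
  /-- coordinate -/
  c₃ : B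

variable {B : Type*} [Ring B] [Algebra ℚ B]

/-- product -/
def NQ.mul (a b : NQ B) : NQ B :=
  ⟨a.c₀ * b.c₀ - a.c₁ * b.c₁ - a.c₂ * b.c₂ - a.c₃ * b.c₃,
    a.c₀ * b.c₁ + a.c₁ * b.c₀ + a.c₂ * b.c₃ - a.c₃ * b.c₂,
    a.c₀ * b.c₂ - a.c₁ * b.c₃ + a.c₂ * b.c₀ + a.c₃ * b.c₁,
    a.c₀ * b.c₃ + a.c₁ * b.c₂ - a.c₂ * b.c₁ + a.c₃ * b.c₀⟩

/-- sum -/
def NQ.add (a b : NQ B) : NQ B := ⟨a.c₀ + b.c₀, a.c₁ + b.c₁, a.c₂ + b.c₂, a.c₃ + b.c₃⟩

/-- scalars -/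
def sc (r : ℚ) : NQ B := ⟨r • 1, 0, 0, 0⟩

/-- anticommutator -/
def ac (a b : NQ B) : NQ B := (a.mul b).add (b.mul a)

/-- the possible values of an anticommutator -/
def Bt (β : NQ B) : Prop :=
  β = sc 6 ∨ β = sc (-6) ∨ β = sc 2 ∨ β = sc (-2) ∨ β.mul β = sc 20

/-- The axioms satisfied by the coordinates of the elements of order three. -/
structure Sys (R : NQ B → Prop) : Prop where
  sq : ∀ c, R c → c.mul c = sc (-3)
  pair : ∀ c d, R c → R d → Bt (ac c d)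
  eq : ∀ c d, R c → R d → ac c d = sc (-6) → c = d
  one : R ⟨0, 1, 1, 1⟩
  neg : ∀ a b c d, R ⟨a, b, c, d⟩ → R ⟨-a, -b, -c, -d⟩
  sgn : ∀ a b c d, R ⟨a, b, c, d⟩ → R ⟨a, b, -c, -d⟩
  cyc : ∀ a b c d, R ⟨a, b, c, d⟩ → R ⟨a, d, b, c⟩
  tau : ∀ c, R c → c.c₀ = 0 ∨ ∀ y : NQ B,
    (((ac ⟨0, 1, 0, 0⟩ c).mul (ac ⟨0, 1, 0, 0⟩ c)).add (sc (-4))).mul y = sc 0 → y = sc 0

variable [Nontrivial B]

theorem smul_one_ne {r : ℚ} (hr : r ≠ 0) : r • (1 : B) ≠ 0 := by simpa using hr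

/-- square roots of `9`, `1`, `5` -/
def Sg (σ : B) : Prop :=
  σ = (3 : ℚ) • 1 ∨ σ = (-3 : ℚ) • 1 ∨ σ = 1 ∨ σ = -1 ∨ σ * σ = (5 : ℚ) • 1

variable {R : NQ B → Prop} (S : Sys R)
include S

omit [Nontrivial B] in
theorem Sys.signs : R ⟨0, 1, -1, -1⟩ ∧ R ⟨0, -1, 1, -1⟩ ∧ R ⟨0, -1, -1, 1⟩ :=
  have h := S.sgn _ _ _ _ S.one
  ⟨h, S.cyc _ _ _ _ h, S.cyc _ _ _ _ (S.cyc _ _ _ _ h)⟩

omit S [Nontrivial B] in
theorem ac_eq (a b c d : B) (s t u : ℚ) : ac ⟨0, s • 1, t • 1, u • 1⟩ ⟨a, b, c, d⟩ =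
    (⟨(-2 : ℚ) • (s • b + t • c + u • d), (2 * s) • a, (2 * t) • a, (2 * u) • a⟩ : NQ B) := by
  simp only [ac, NQ.mul, NQ.add, NQ.mk.injEq]
  refine ⟨?_, ?_, ?_, ?_⟩ <;> (simp only [mul_add, add_mul, mul_sub, sub_mul, neg_mul, mul_neg, smul_mul_assoc, mul_smul_comm, mul_assoc, one_mul, mul_one, mul_zero, zero_mul]; module)

omit [Nontrivial B] in
theorem Sys.aux0 {a b c d : B} (h : R ⟨a, b, c, d⟩) (ha : a ≠ 0) {s t u : ℚ}
    (hs : s * s = 1) (ht : t * t = 1) (hu : u * u = 1) (h' : R ⟨0, s • 1, t • 1, u • 1⟩) :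
    (s • b + t • c + u • d) * (s • b + t • c + u • d) - (3 : ℚ) • (a * a) = (5 : ℚ) • 1 ∧
      a * (s • b + t • c + u • d) + (s • b + t • c + u • d) * a = 0 := by
  have := S.pair _ _ h' h
  rw [ac_eq] at this
  generalize s • b + t • c + u • d = σ at *
  have hs0 : 2 * s ≠ 0 := by rintro e; simp_all
  simp only [Bt, NQ.mul, sc, NQ.mk.injEq, smul_eq_zero, ha, hs0, or_self, false_and, and_false,
    false_or] at this
  obtain ⟨e, e', -⟩ := this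
  exact ⟨by linear_combination (norm := ((try simp only [mul_add, add_mul, mul_sub, sub_mul, neg_mul, mul_neg, smul_mul_assoc, mul_smul_comm, mul_assoc, one_mul, mul_one, mul_zero, zero_mul]); module)) (1 / 4 : ℚ) • e + (hs + ht + hu) • (a * a),
    by linear_combination (norm := ((try simp only [mul_add, add_mul, mul_sub, sub_mul, neg_mul, mul_neg, smul_mul_assoc, mul_smul_comm, mul_assoc, one_mul, mul_one, mul_zero, zero_mul]); module)) (-s / 4 : ℚ) • e' - hs • (a * σ + σ * a)⟩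

theorem Sys.zero {a b c d : B} (h : R ⟨a, b, c, d⟩) : a = 0 := by
  by_contra ha
  obtain ⟨s1, s2, s3⟩ := S.signs
  obtain ⟨p0, q0⟩ := S.aux0 h ha (s := 1) (t := 1) (u := 1) (by norm_num) (by norm_num)
    (by norm_num) (by simpa using S.one)
  obtain ⟨p1, q1⟩ := S.aux0 h ha (s := 1) (t := -1) (u := -1) (by norm_num) (by norm_num)
    (by norm_num) (by simpa using s1)
  obtain ⟨p2, q2⟩ := S.aux0 h ha (s := -1) (t := 1) (u := -1) (by norm_num) (by norm_num)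
    (by norm_num) (by simpa using s2)
  obtain ⟨p3, q3⟩ := S.aux0 h ha (s := -1) (t := -1) (u := 1) (by norm_num) (by norm_num)
    (by norm_num) (by simpa using s3)
  have hsq := S.sq _ h
  simp only [NQ.mul, sc, NQ.mk.injEq] at hsq
  obtain ⟨e0, e1, e2, e3⟩ := hsq
  have hab : a * b + b * a = 0 := by linear_combination (norm := ((try simp only [mul_add, add_mul, mul_sub, sub_mul, neg_mul, mul_neg, smul_mul_assoc, mul_smul_comm, mul_assoc, one_mul, mul_one, mul_zero, zero_mul]); module)) (1 / 2 : ℚ) • (q0 + q1)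
  have hac : a * c + c * a = 0 := by linear_combination (norm := ((try simp only [mul_add, add_mul, mul_sub, sub_mul, neg_mul, mul_neg, smul_mul_assoc, mul_smul_comm, mul_assoc, one_mul, mul_one, mul_zero, zero_mul]); module)) (1 / 2 : ℚ) • (q0 + q2)
  have had : a * d + d * a = 0 := by linear_combination (norm := ((try simp only [mul_add, add_mul, mul_sub, sub_mul, neg_mul, mul_neg, smul_mul_assoc, mul_smul_comm, mul_assoc, one_mul, mul_one, mul_zero, zero_mul]); module)) (1 / 2 : ℚ) • (q0 + q3)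
  have haa : a * a = -1 := by linear_combination (norm := ((try simp only [mul_add, add_mul, mul_sub, sub_mul, neg_mul, mul_neg, smul_mul_assoc, mul_smul_comm, mul_assoc, one_mul, mul_one, mul_zero, zero_mul]); module)) (-1 / 8 : ℚ) • (p0 + p1 + p2 + p3) - (1 / 2 : ℚ) • e0
  have hbd : b * d = 0 := by
    linear_combination (norm := ((try simp only [mul_add, add_mul, mul_sub, sub_mul, neg_mul, mul_neg, smul_mul_assoc, mul_smul_comm, mul_assoc, one_mul, mul_one, mul_zero, zero_mul]); module)) (1 / 8 : ℚ) • (p0 + p2 - p1 - p3) - (1 / 2 : ℚ) • e2 + (1 / 2 : ℚ) • hac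
  have t1 := (S.tau _ h).resolve_left ha ⟨d * d, 0, 0, 0⟩ (by
    simp only [ac, NQ.mul, NQ.add, sc, NQ.mk.injEq]
    refine ⟨?_, ?_, ?_, ?_⟩
    · linear_combination (norm := ((try simp only [mul_add, add_mul, mul_sub, sub_mul, neg_mul, mul_neg, smul_mul_assoc, mul_smul_comm, mul_assoc, one_mul, mul_one, mul_zero, zero_mul]); module)) (4 : ℚ) • (b * hbd * d) - (4 : ℚ) • (haa * d * d)
    · linear_combination (norm := ((try simp only [mul_add, add_mul, mul_sub, sub_mul, neg_mul, mul_neg, smul_mul_assoc, mul_smul_comm, mul_assoc, one_mul, mul_one, mul_zero, zero_mul]); module)) (-4 : ℚ) • (hab * d * d)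
    · simp
    · simp)
  simp only [sc, NQ.mk.injEq] at t1
  have t2 := (S.tau _ (S.cyc _ _ _ _ h)).resolve_left ha ⟨1, 0, 0, 0⟩ (by
    simp only [ac, NQ.mul, NQ.add, sc, NQ.mk.injEq]
    refine ⟨?_, ?_, ?_, ?_⟩
    · linear_combination (norm := ((try simp only [mul_add, add_mul, mul_sub, sub_mul, neg_mul, mul_neg, smul_mul_assoc, mul_smul_comm, mul_assoc, one_mul, mul_one, mul_zero, zero_mul]); module)) (4 : ℚ) • t1.1 - (4 : ℚ) • haa
    · linear_combination (norm := ((try simp only [mul_add, add_mul, mul_sub, sub_mul, neg_mul, mul_neg, smul_mul_assoc, mul_smul_comm, mul_assoc, one_mul, mul_one, mul_zero, zero_mul]); module)) (-4 : ℚ) • had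
    · simp
    · simp)
  simp [sc] at t2

omit [Nontrivial B] in
theorem Sys.sg {b c d : B} (h : R ⟨0, b, c, d⟩) {s t u : ℚ} (h' : R ⟨0, s • 1, t • 1, u • 1⟩) :
    Sg (s • b + t • c + u • d) := by
  have := S.pair _ _ h' h
  rw [ac_eq] at this
  generalize s • b + t • c + u • d = σ at *
  simp only [Bt, NQ.mul, sc, NQ.mk.injEq] at this
  rcases this with ⟨e, -⟩ | ⟨e, -⟩ | ⟨e, -⟩ | ⟨e, -⟩ | ⟨e, -⟩
  · exact Or.inr (Or.inl (by linear_combination (norm := ((try simp only [mul_add, add_mul, mul_sub, sub_mul, neg_mul, mul_neg, smul_mul_assoc, mul_smul_comm, mul_assoc, one_mul, mul_one, mul_zero, zero_mul]); module)) (-1 / 2 : ℚ) • e))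
  · exact Or.inl (by linear_combination (norm := ((try simp only [mul_add, add_mul, mul_sub, sub_mul, neg_mul, mul_neg, smul_mul_assoc, mul_smul_comm, mul_assoc, one_mul, mul_one, mul_zero, zero_mul]); module)) (-1 / 2 : ℚ) • e)
  · exact Or.inr (Or.inr (Or.inr (Or.inl (by linear_combination (norm := ((try simp only [mul_add, add_mul, mul_sub, sub_mul, neg_mul, mul_neg, smul_mul_assoc, mul_smul_comm, mul_assoc, one_mul, mul_one, mul_zero, zero_mul]); module)) (-1 / 2 : ℚ) • e))))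
  · exact Or.inr (Or.inr (Or.inl (by linear_combination (norm := ((try simp only [mul_add, add_mul, mul_sub, sub_mul, neg_mul, mul_neg, smul_mul_assoc, mul_smul_comm, mul_assoc, one_mul, mul_one, mul_zero, zero_mul]); module)) (-1 / 2 : ℚ) • e)))
  · exact Or.inr (Or.inr (Or.inr (Or.inr (by linear_combination (norm := ((try simp only [mul_add, add_mul, mul_sub, sub_mul, neg_mul, mul_neg, smul_mul_assoc, mul_smul_comm, mul_assoc, one_mul, mul_one, mul_zero, zero_mul, smul_zero]); module)) (1 / 4 : ℚ) • e))))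

omit S [Nontrivial B] in
theorem Sg.sq {σ : B} (h : Sg σ) : ∃ q : ℚ, σ * σ = q • 1 ∧
    ((q = 9 ∧ (σ = (3 : ℚ) • 1 ∨ σ = (-3 : ℚ) • 1)) ∨ (q = 1 ∧ (σ = 1 ∨ σ = -1)) ∨ q = 5) := by
  rcases h with rfl | rfl | rfl | rfl | h
  · exact ⟨9, by simp only [mul_add, add_mul, mul_sub, sub_mul, neg_mul, mul_neg, smul_mul_assoc, mul_smul_comm, mul_assoc, one_mul, mul_one, mul_zero, zero_mul]; module, Or.inl ⟨rfl, Or.inl rfl⟩⟩
  · exact ⟨9, by simp only [mul_add, add_mul, mul_sub, sub_mul, neg_mul, mul_neg, smul_mul_assoc, mul_smul_comm, mul_assoc, one_mul, mul_one, mul_zero, zero_mul]; module, Or.inl ⟨rfl, Or.inr rfl⟩⟩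
  · exact ⟨1, by simp, Or.inr (Or.inl ⟨rfl, Or.inl rfl⟩)⟩
  · exact ⟨1, by simp, Or.inr (Or.inl ⟨rfl, Or.inr rfl⟩)⟩
  · exact ⟨5, h, Or.inr (Or.inr rfl)⟩

/-- The twelve remaining vertices of the dodecahedron. -/
def Pat (φ b c d : B) : Prop := ∃ s t : B, (s = 1 ∨ s = -1) ∧ (t = 1 ∨ t = -1) ∧
  ((b = 0 ∧ c = s * φ ∧ d = t * (1 - φ)) ∨ (b = t * (1 - φ) ∧ c = 0 ∧ d = s * φ) ∨
    (b = s * φ ∧ c = t * (1 - φ) ∧ d = 0))

omit S [Algebra ℚ B] [Nontrivial B] in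
theorem Pat.cyc {φ b c d : B} (h : Pat φ c d b) : Pat φ b c d := by
  obtain ⟨s, t, hs, ht, h⟩ := h
  exact ⟨s, t, hs, ht, by tauto⟩

omit S in
theorem five_aux {u v d e : B} (hu : u * u = (5 : ℚ) • 1) (hv : v * v = (5 : ℚ) • 1)
    (hd : d = 1 ∨ d = -1) (he : e = 1 ∨ e = -1) (h : u + v + d + e = 0) : d + e = 0 := by
  have key : ∀ r : ℚ, r * r = 1 → u + v + (2 * r) • 1 = 0 → False := fun r hr h => by
    have h1 : v = -u - (2 * r) • 1 := by linear_combination (norm := ((try simp only [mul_add, add_mul, mul_sub, sub_mul, neg_mul, mul_neg, smul_mul_assoc, mul_smul_comm, mul_assoc, one_mul, mul_one, mul_zero, zero_mul]); module)) h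
    subst h1
    have h2 : u = -r • 1 := by linear_combination (norm := ((try simp only [mul_add, add_mul, mul_sub, sub_mul, neg_mul, mul_neg, smul_mul_assoc, mul_smul_comm, mul_assoc, one_mul, mul_one, mul_zero, zero_mul]); module)) (r / 4) • (hv - hu) - hr • u - hr • (r • (1 : B))
    subst h2
    refine smul_one_ne (B := B) (r := 4) (by norm_num) ?_
    linear_combination (norm := ((try simp only [mul_add, add_mul, mul_sub, sub_mul, neg_mul, mul_neg, smul_mul_assoc, mul_smul_comm, mul_assoc, one_mul, mul_one, mul_zero, zero_mul]); module)) hr • (1 : B) - hu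
  rcases hd with rfl | rfl <;> rcases he with rfl | rfl
  · exact (key 1 (by norm_num) (by linear_combination (norm := ((try simp only [mul_add, add_mul, mul_sub, sub_mul, neg_mul, mul_neg, smul_mul_assoc, mul_smul_comm, mul_assoc, one_mul, mul_one, mul_zero, zero_mul]); module)) h)).elim
  · simp
  · simp
  · exact (key (-1) (by norm_num) (by linear_combination (norm := ((try simp only [mul_add, add_mul, mul_sub, sub_mul, neg_mul, mul_neg, smul_mul_assoc, mul_smul_comm, mul_assoc, one_mul, mul_one, mul_zero, zero_mul]); module)) h)).elim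

omit S in
theorem pat01 {b c d : B} (h0 : (b + c + d) * (b + c + d) = (5 : ℚ) • 1)
    (h1 : (b - c - d) * (b - c - d) = (5 : ℚ) • 1) (h2 : -b + c - d = 1 ∨ -b + c - d = -1)
    (h3 : -b - c + d = 1 ∨ -b - c + d = -1) : ∃ φ, φ * φ = φ + 1 ∧ Pat φ b c d := by
  have := five_aux h0 h1 h2 h3 (by abel)
  obtain rfl : b = 0 := by linear_combination (norm := ((try simp only [mul_add, add_mul, mul_sub, sub_mul, neg_mul, mul_neg, smul_mul_assoc, mul_smul_comm, mul_assoc, one_mul, mul_one, mul_zero, zero_mul]); module)) (-1 / 2 : ℚ) • this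
  rcases h2 with h2 | h2
  · obtain rfl : d = c - 1 := by linear_combination (norm := ((try simp only [mul_add, add_mul, mul_sub, sub_mul, neg_mul, mul_neg, smul_mul_assoc, mul_smul_comm, mul_assoc, one_mul, mul_one, mul_zero, zero_mul]); module)) -h2
    exact ⟨c, by linear_combination (norm := ((try simp only [mul_add, add_mul, mul_sub, sub_mul, neg_mul, mul_neg, smul_mul_assoc, mul_smul_comm, mul_assoc, one_mul, mul_one, mul_zero, zero_mul]); module)) (1 / 4 : ℚ) • h0, 1, -1, Or.inl rfl, Or.inr rfl,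
      Or.inl ⟨rfl, by simp, by simp⟩⟩
  · obtain rfl : d = c + 1 := by linear_combination (norm := ((try simp only [mul_add, add_mul, mul_sub, sub_mul, neg_mul, mul_neg, smul_mul_assoc, mul_smul_comm, mul_assoc, one_mul, mul_one, mul_zero, zero_mul]); module)) -h2
    exact ⟨-c, by linear_combination (norm := ((try simp only [mul_add, add_mul, mul_sub, sub_mul, neg_mul, mul_neg, smul_mul_assoc, mul_smul_comm, mul_assoc, one_mul, mul_one, mul_zero, zero_mul]); module)) (1 / 4 : ℚ) • h0, -1, 1, Or.inr rfl, Or.inl rfl,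
      Or.inl ⟨rfl, by simp, by simp [add_comm]⟩⟩

omit S in
theorem pat23 {b c d : B} (h0 : b + c + d = 1 ∨ b + c + d = -1)
    (h1 : b - c - d = 1 ∨ b - c - d = -1) (h2 : (-b + c - d) * (-b + c - d) = (5 : ℚ) • 1)
    (h3 : (-b - c + d) * (-b - c + d) = (5 : ℚ) • 1) : ∃ φ, φ * φ = φ + 1 ∧ Pat φ b c d := by
  have := five_aux h2 h3 h0 h1 (by abel)
  obtain rfl : b = 0 := by linear_combination (norm := ((try simp only [mul_add, add_mul, mul_sub, sub_mul, neg_mul, mul_neg, smul_mul_assoc, mul_smul_comm, mul_assoc, one_mul, mul_one, mul_zero, zero_mul]); module)) (1 / 2 : ℚ) • this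
  rcases h0 with h0 | h0
  · obtain rfl : d = 1 - c := by linear_combination (norm := ((try simp only [mul_add, add_mul, mul_sub, sub_mul, neg_mul, mul_neg, smul_mul_assoc, mul_smul_comm, mul_assoc, one_mul, mul_one, mul_zero, zero_mul]); module)) h0
    exact ⟨c, by linear_combination (norm := ((try simp only [mul_add, add_mul, mul_sub, sub_mul, neg_mul, mul_neg, smul_mul_assoc, mul_smul_comm, mul_assoc, one_mul, mul_one, mul_zero, zero_mul]); module)) (1 / 4 : ℚ) • h2, 1, 1, Or.inl rfl, Or.inl rfl,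
      Or.inl ⟨rfl, by simp, by simp⟩⟩
  · obtain rfl : d = -1 - c := by linear_combination (norm := ((try simp only [mul_add, add_mul, mul_sub, sub_mul, neg_mul, mul_neg, smul_mul_assoc, mul_smul_comm, mul_assoc, one_mul, mul_one, mul_zero, zero_mul]); module)) h0
    exact ⟨-c, by linear_combination (norm := ((try simp only [mul_add, add_mul, mul_sub, sub_mul, neg_mul, mul_neg, smul_mul_assoc, mul_smul_comm, mul_assoc, one_mul, mul_one, mul_zero, zero_mul]); module)) (1 / 4 : ℚ) • h2, -1, -1, Or.inr rfl, Or.inr rfl,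
      Or.inl ⟨rfl, by simp, by simp [sub_eq_add_neg, add_comm]⟩⟩

omit S [Nontrivial B] in
theorem cube_aux {u v : B} {q r : ℚ} (hu : u = q • 1) (hv : v = r • 1) {c : B}
    (h : u + v = c + c) (hqr : q + r = 2 ∨ q + r = -2) : c = 1 ∨ c = -1 := by
  subst hu hv
  rcases hqr with e | e
  · left
    linear_combination (norm := skip) (-1 / 2 : ℚ) • h +
      (congrArg (fun q : ℚ => (q / 2) • (1 : B)) e)
    module
  · right
    linear_combination (norm := skip) (-1 / 2 : ℚ) • h +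
      (congrArg (fun q : ℚ => (q / 2) • (1 : B)) e)
    module

omit S [Ring B] [Algebra ℚ B] [Nontrivial B] in
theorem case_aux {q0 q1 q2 q3 : ℚ} {A0 A1 A2 A3 C0 C1 C2 C3 : Prop} (h : q0 + q1 + q2 + q3 = 12)
    (k0 : (q0 = 9 ∧ A0) ∨ (q0 = 1 ∧ C0) ∨ q0 = 5) (k1 : (q1 = 9 ∧ A1) ∨ (q1 = 1 ∧ C1) ∨ q1 = 5)
    (k2 : (q2 = 9 ∧ A2) ∨ (q2 = 1 ∧ C2) ∨ q2 = 5) (k3 : (q3 = 9 ∧ A3) ∨ (q3 = 1 ∧ C3) ∨ q3 = 5) :
    (A0 ∧ C1 ∧ C2 ∧ C3) ∨ (C0 ∧ A1 ∧ C2 ∧ C3) ∨ (C0 ∧ C1 ∧ A2 ∧ C3) ∨ (C0 ∧ C1 ∧ C2 ∧ A3) ∨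
    (C0 ∧ C1 ∧ q2 = 5 ∧ q3 = 5) ∨ (C0 ∧ q1 = 5 ∧ C2 ∧ q3 = 5) ∨ (C0 ∧ q1 = 5 ∧ q2 = 5 ∧ C3) ∨
    (q0 = 5 ∧ C1 ∧ C2 ∧ q3 = 5) ∨ (q0 = 5 ∧ C1 ∧ q2 = 5 ∧ C3) ∨ (q0 = 5 ∧ q1 = 5 ∧ C2 ∧ C3) := by
  rcases k0 with ⟨rfl, h0⟩ | ⟨rfl, h0⟩ | rfl <;> rcases k1 with ⟨rfl, h1⟩ | ⟨rfl, h1⟩ | rfl <;>
    rcases k2 with ⟨rfl, h2⟩ | ⟨rfl, h2⟩ | rfl <;> rcases k3 with ⟨rfl, h3⟩ | ⟨rfl, h3⟩ | rfl <;>
    first | (exfalso; norm_num at h; done) | simp [*]

omit S [Ring B] [Algebra ℚ B] [Nontrivial B] in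
theorem case_aux2 {r0 r1 r2 r3 : ℚ}
    (h : ((r0 = 3 ∨ r0 = -3) ∧ (r1 = 1 ∨ r1 = -1) ∧ (r2 = 1 ∨ r2 = -1) ∧ (r3 = 1 ∨ r3 = -1)) ∨
      ((r0 = 1 ∨ r0 = -1) ∧ (r1 = 3 ∨ r1 = -3) ∧ (r2 = 1 ∨ r2 = -1) ∧ (r3 = 1 ∨ r3 = -1)) ∨
      ((r0 = 1 ∨ r0 = -1) ∧ (r1 = 1 ∨ r1 = -1) ∧ (r2 = 3 ∨ r2 = -3) ∧ (r3 = 1 ∨ r3 = -1)) ∨
      ((r0 = 1 ∨ r0 = -1) ∧ (r1 = 1 ∨ r1 = -1) ∧ (r2 = 1 ∨ r2 = -1) ∧ (r3 = 3 ∨ r3 = -3)))
    (hs : r0 + r1 + r2 + r3 = 0) : (r0 + r1 = 2 ∨ r0 + r1 = -2) ∧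
      (r0 + r2 = 2 ∨ r0 + r2 = -2) ∧ (r0 + r3 = 2 ∨ r0 + r3 = -2) := by
  grind

theorem Sys.classify {b c d : B} (h : R ⟨0, b, c, d⟩) :
    ((b = 1 ∨ b = -1) ∧ (c = 1 ∨ c = -1) ∧ (d = 1 ∨ d = -1)) ∨ ∃ φ, φ * φ = φ + 1 ∧ Pat φ b c d := by
  obtain ⟨s1, s2, s3⟩ := S.signs
  have g0 := S.sg h (s := 1) (t := 1) (u := 1) (by simpa using S.one)
  have g1 := S.sg h (s := 1) (t := -1) (u := -1) (by simpa using s1)
  have g2 := S.sg h (s := -1) (t := 1) (u := -1) (by simpa using s2)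
  have g3 := S.sg h (s := -1) (t := -1) (u := 1) (by simpa using s3)
  simp only [one_smul, neg_smul, ← sub_eq_add_neg] at g0 g1 g2 g3
  have hsq := S.sq _ h
  simp only [NQ.mul, sc, NQ.mk.injEq] at hsq
  obtain ⟨q0, p0, k0⟩ := g0.sq
  obtain ⟨q1, p1, k1⟩ := g1.sq
  obtain ⟨q2, p2, k2⟩ := g2.sq
  obtain ⟨q3, p3, k3⟩ := g3.sq
  have hq : q0 + q1 + q2 + q3 = 12 := by
    by_contra hn
    refine smul_one_ne (B := B) (sub_ne_zero.mpr hn) ?_
    linear_combination (norm := ((try simp only [mul_add, add_mul, mul_sub, sub_mul, neg_mul, mul_neg, smul_mul_assoc, mul_smul_comm, mul_assoc, one_mul, mul_one, mul_zero, zero_mul]); module)) -(p0 + p1 + p2 + p3) - (4 : ℚ) • hsq.1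
  have sc4 : ∀ r0 r1 r2 r3 : ℚ, b + c + d = r0 • 1 → b - c - d = r1 • 1 → -b + c - d = r2 • 1 →
      -b - c + d = r3 • 1 → (r0 + r1 + r2 + r3 = 0 → (r0 + r1 = 2 ∨ r0 + r1 = -2) ∧
      (r0 + r2 = 2 ∨ r0 + r2 = -2) ∧ (r0 + r3 = 2 ∨ r0 + r3 = -2)) →
      (b = 1 ∨ b = -1) ∧ (c = 1 ∨ c = -1) ∧ (d = 1 ∨ d = -1) := by
    intro r0 r1 r2 r3 e0 e1 e2 e3 hr
    obtain ⟨a1, a2, a3⟩ := hr (by
      by_contra hn
      refine smul_one_ne (B := B) hn ?_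
      linear_combination (norm := module) -(e0 + e1 + e2 + e3))
    exact ⟨cube_aux e0 e1 (by abel) a1, cube_aux e0 e2 (by abel) a2, cube_aux e0 e3 (by abel) a3⟩
  have o1 : ∀ σ : B, σ = 1 ∨ σ = -1 → ∃ r : ℚ, σ = r • 1 ∧ (r = 1 ∨ r = -1) := by
    rintro _ (rfl | rfl)
    exacts [⟨1, by simp, Or.inl rfl⟩, ⟨-1, by simp, Or.inr rfl⟩]
  have o3 : ∀ σ : B, σ = (3 : ℚ) • 1 ∨ σ = (-3 : ℚ) • 1 → ∃ r : ℚ, σ = r • 1 ∧ (r = 3 ∨ r = -3) := by
    rintro _ (rfl | rfl)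
    exacts [⟨3, rfl, Or.inl rfl⟩, ⟨-3, rfl, Or.inr rfl⟩]
  rcases case_aux hq k0 k1 k2 k3 with ⟨k0, k1, k2, k3⟩ | ⟨k0, k1, k2, k3⟩ | ⟨k0, k1, k2, k3⟩ |
    ⟨k0, k1, k2, k3⟩ | ⟨k0, k1, rfl, rfl⟩ | ⟨k0, rfl, k2, rfl⟩ | ⟨k0, rfl, rfl, k3⟩ |
    ⟨rfl, k1, k2, rfl⟩ | ⟨rfl, k1, rfl, k3⟩ | ⟨rfl, rfl, k2, k3⟩
  · obtain ⟨r0, e0, a0⟩ := o3 _ k0; obtain ⟨r1, e1, a1⟩ := o1 _ k1
    obtain ⟨r2, e2, a2⟩ := o1 _ k2; obtain ⟨r3, e3, a3⟩ := o1 _ k3
    exact Or.inl (sc4 _ _ _ _ e0 e1 e2 e3 (case_aux2 (Or.inl ⟨a0, a1, a2, a3⟩)))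
  · obtain ⟨r0, e0, a0⟩ := o1 _ k0; obtain ⟨r1, e1, a1⟩ := o3 _ k1
    obtain ⟨r2, e2, a2⟩ := o1 _ k2; obtain ⟨r3, e3, a3⟩ := o1 _ k3
    exact Or.inl (sc4 _ _ _ _ e0 e1 e2 e3 (case_aux2 (Or.inr (Or.inl ⟨a0, a1, a2, a3⟩))))
  · obtain ⟨r0, e0, a0⟩ := o1 _ k0; obtain ⟨r1, e1, a1⟩ := o1 _ k1
    obtain ⟨r2, e2, a2⟩ := o3 _ k2; obtain ⟨r3, e3, a3⟩ := o1 _ k3
    exact Or.inl (sc4 _ _ _ _ e0 e1 e2 e3 (case_aux2 (Or.inr (Or.inr (Or.inl ⟨a0, a1, a2, a3⟩)))))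
  · obtain ⟨r0, e0, a0⟩ := o1 _ k0; obtain ⟨r1, e1, a1⟩ := o1 _ k1
    obtain ⟨r2, e2, a2⟩ := o1 _ k2; obtain ⟨r3, e3, a3⟩ := o3 _ k3
    exact Or.inl (sc4 _ _ _ _ e0 e1 e2 e3 (case_aux2 (Or.inr (Or.inr (Or.inr ⟨a0, a1, a2, a3⟩)))))
  · exact Or.inr (pat23 k0 k1 p2 p3)
  · refine Or.inr ((pat23 (b := c) (c := d) (d := b) ?_ ?_ ?_ ?_).imp fun φ h => ⟨h.1, h.2.cyc⟩)
    · convert k0 using 2 <;> abel
    · convert k2 using 2 <;> abel
    · convert p3 using 2 <;> abel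
    · convert p1 using 2 <;> abel
  · refine Or.inr ((pat23 (b := d) (c := b) (d := c) ?_ ?_ ?_ ?_).imp
      fun φ h => ⟨h.1, h.2.cyc.cyc⟩)
    · convert k0 using 2 <;> abel
    · convert k3 using 2 <;> abel
    · convert p1 using 2 <;> abel
    · convert p2 using 2 <;> abel
  · refine Or.inr ((pat01 (b := d) (c := b) (d := c) ?_ ?_ ?_ ?_).imp
      fun φ h => ⟨h.1, h.2.cyc.cyc⟩)
    · convert p0 using 2 <;> abel
    · convert p3 using 2 <;> abel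
    · convert k1 using 2 <;> abel
    · convert k2 using 2 <;> abel
  · refine Or.inr ((pat01 (b := c) (c := d) (d := b) ?_ ?_ ?_ ?_).imp fun φ h => ⟨h.1, h.2.cyc⟩)
    · convert p0 using 2 <;> abel
    · convert p2 using 2 <;> abel
    · convert k3 using 2 <;> abel
    · convert k1 using 2 <;> abel
  · exact Or.inr (pat01 p0 p1 k2 k3)

omit [Nontrivial B] in
theorem Sys.of_pat {φ b c d : B} (h : R ⟨0, b, c, d⟩) (hp : Pat φ b c d) : R ⟨0, 0, φ, 1 - φ⟩ := by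
  have key : ∀ s t : B, (s = 1 ∨ s = -1) → (t = 1 ∨ t = -1) → R ⟨0, 0, s * φ, t * (1 - φ)⟩ →
      R ⟨0, 0, φ, 1 - φ⟩ := by
    have k : ∀ c d : B, R ⟨0, 0, c, d⟩ → R ⟨0, 0, c, -d⟩ := fun c d h => by
      have := S.cyc _ _ _ _ (S.sgn _ _ _ _ (S.cyc _ _ _ _ (S.cyc _ _ _ _ h)))
      simpa using this
    rintro s t (rfl | rfl) (rfl | rfl) h
    · simpa using h
    · simpa using k _ _ h
    · simpa using k _ _ (S.sgn _ _ _ _ h)
    · simpa using S.sgn _ _ _ _ h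
  obtain ⟨s, t, hs, ht, ⟨rfl, rfl, rfl⟩ | ⟨rfl, rfl, rfl⟩ | ⟨rfl, rfl, rfl⟩⟩ := hp
  · exact key s t hs ht h
  · exact key s t hs ht (S.cyc _ _ _ _ (S.cyc _ _ _ _ h))
  · exact key s t hs ht (S.cyc _ _ _ _ h)

theorem Sys.unique {φ ψ : B} (hφ : φ * φ = φ + 1) (hψ : ψ * ψ = ψ + 1) (h : R ⟨0, 0, φ, 1 - φ⟩)
    (h' : R ⟨0, 0, ψ, 1 - ψ⟩) : φ = ψ := by
  have hφ' : ∀ r, φ * (φ * r) = φ * r + r := fun r => by rw [← mul_assoc, hφ, add_mul, one_mul]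
  have hψ' : ∀ r, ψ * (ψ * r) = ψ * r + r := fun r => by rw [← mul_assoc, hψ, add_mul, one_mul]
  obtain ⟨η, hη⟩ : ∃ η, η = (2 : ℚ) • (φ * ψ + ψ * φ - φ - ψ + 1) := ⟨_, rfl⟩
  obtain ⟨κ, hκ⟩ : ∃ κ, κ = φ * ψ - ψ * φ := ⟨_, rfl⟩
  obtain ⟨ρ, hρ⟩ : ∃ ρ, ρ = ψ + ψ - φ * ψ - ψ * φ := ⟨_, rfl⟩
  obtain ⟨μ, hμ⟩ : ∃ μ, μ = (2 : ℚ) • (1 - φ - ψ) := ⟨_, rfl⟩
  have I1 : ρ * κ + κ * ρ = (2 : ℚ) • κ - η * κ := by
    subst hη hκ hρ; simp only [mul_add, add_mul, mul_sub, sub_mul, neg_mul, mul_neg, smul_mul_assoc, mul_smul_comm, mul_assoc, one_mul, mul_one, mul_zero, zero_mul, hφ, hψ, hφ', hψ']; module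
  have I2 : (4 : ℚ) • (κ * κ) = η * η - (2 : ℚ) • η - (24 : ℚ) • 1 := by
    subst hη hκ; simp only [mul_add, add_mul, mul_sub, sub_mul, neg_mul, mul_neg, smul_mul_assoc, mul_smul_comm, mul_assoc, one_mul, mul_one, mul_zero, zero_mul, hφ, hψ, hφ', hψ']; module
  have I3 : μ * μ = (8 : ℚ) • 1 + (2 : ℚ) • η := by
    subst hη hμ; simp only [mul_add, add_mul, mul_sub, sub_mul, neg_mul, mul_neg, smul_mul_assoc, mul_smul_comm, mul_assoc, one_mul, mul_one, mul_zero, zero_mul, hφ, hψ, hφ', hψ']; module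
  have T1 : ac ⟨0, 0, φ, 1 - φ⟩ ⟨0, 0, ψ, 1 - ψ⟩ = (⟨-η, 0, 0, 0⟩ : NQ B) := by
    subst hη
    simp only [ac, NQ.mul, NQ.add, NQ.mk.injEq]
    refine ⟨?_, ?_, ?_, ?_⟩ <;> (simp only [mul_add, add_mul, mul_sub, sub_mul, neg_mul, mul_neg, smul_mul_assoc, mul_smul_comm, mul_assoc, one_mul, mul_one, mul_zero, zero_mul]; module)
  have T2 : ac ⟨0, 0, φ, 1 - φ⟩ ⟨0, 0, ψ, -(1 - ψ)⟩ = (⟨μ, κ + κ, 0, 0⟩ : NQ B) := by
    subst hμ hκ
    simp only [ac, NQ.mul, NQ.add, NQ.mk.injEq]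
    refine ⟨?_, ?_, ?_, ?_⟩ <;> (simp only [mul_add, add_mul, mul_sub, sub_mul, neg_mul, mul_neg, smul_mul_assoc, mul_smul_comm, mul_assoc, one_mul, mul_one, mul_zero, zero_mul]; module)
  have T3 : ac ⟨0, 0, φ, 1 - φ⟩ ⟨0, 1 - ψ, 0, ψ⟩ = (⟨-ρ, κ, κ, κ⟩ : NQ B) := by
    subst hρ hκ
    simp only [ac, NQ.mul, NQ.add, NQ.mk.injEq]
    refine ⟨?_, ?_, ?_, ?_⟩ <;> (simp only [mul_add, add_mul, mul_sub, sub_mul, neg_mul, mul_neg, smul_mul_assoc, mul_smul_comm, mul_assoc, one_mul, mul_one, mul_zero, zero_mul]; module)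
  have p1 := S.pair _ _ h h'
  have p2 := S.pair _ _ h (show R ⟨0, 0, ψ, -(1 - ψ)⟩ by
    simpa using S.cyc _ _ _ _ (S.sgn _ _ _ _ (S.cyc _ _ _ _ (S.cyc _ _ _ _ h'))))
  have p3 := S.pair _ _ h (S.cyc _ _ _ _ h')
  have p4 := S.eq _ _ h h'
  rw [T1] at p1 p4
  rw [T2] at p2
  rw [T3] at p3
  clear hη hκ hρ hμ T1 T2 T3
  simp only [Bt, NQ.mul, sc, NQ.mk.injEq] at p1 p2 p3 p4
  have J : (2 : ℚ) • κ - η * κ = 0 := by
    rcases p3 with ⟨-, rfl, -⟩ | ⟨-, rfl, -⟩ | ⟨-, rfl, -⟩ | ⟨-, rfl, -⟩ | ⟨-, e, -⟩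
    iterate 4 simp
    linear_combination (norm := ((try simp only [mul_add, add_mul, mul_sub, sub_mul, neg_mul, mul_neg, smul_mul_assoc, mul_smul_comm, mul_assoc, one_mul, mul_one, mul_zero, zero_mul]); module)) -I1 - e
  have J2 : ((2 : ℚ) • 1 - η) * (η * η - (2 : ℚ) • η - (24 : ℚ) • 1) = 0 := by
    linear_combination (norm := ((try simp only [mul_add, add_mul, mul_sub, sub_mul, neg_mul, mul_neg, smul_mul_assoc, mul_smul_comm, mul_assoc, one_mul, mul_one, mul_zero, zero_mul]); module)) (4 : ℚ) • (J * κ) - ((2 : ℚ) • 1 - η) * I2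
  rcases p1 with ⟨e, -⟩ | ⟨e, -⟩ | ⟨e, -⟩ | ⟨e, -⟩ | ⟨e, -⟩
  · obtain rfl : η = (-6 : ℚ) • 1 := by linear_combination (norm := ((try simp only [mul_add, add_mul, mul_sub, sub_mul, neg_mul, mul_neg, smul_mul_assoc, mul_smul_comm, mul_assoc, one_mul, mul_one, mul_zero, zero_mul]); module)) -e
    exact absurd (by linear_combination (norm := ((try simp only [mul_add, add_mul, mul_sub, sub_mul, neg_mul, mul_neg, smul_mul_assoc, mul_smul_comm, mul_assoc, one_mul, mul_one, mul_zero, zero_mul]); module)) J2) (smul_one_ne (B := B) (r := 192) (by norm_num))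
  · exact (p4 ⟨e, trivial, trivial, trivial⟩).2.2.1
  · obtain rfl : η = (-2 : ℚ) • 1 := by linear_combination (norm := ((try simp only [mul_add, add_mul, mul_sub, sub_mul, neg_mul, mul_neg, smul_mul_assoc, mul_smul_comm, mul_assoc, one_mul, mul_one, mul_zero, zero_mul]); module)) -e
    exact absurd (by linear_combination (norm := ((try simp only [mul_add, add_mul, mul_sub, sub_mul, neg_mul, mul_neg, smul_mul_assoc, mul_smul_comm, mul_assoc, one_mul, mul_one, mul_zero, zero_mul]); module)) J2) (smul_one_ne (B := B) (r := -64) (by norm_num))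
  · obtain rfl : η = (2 : ℚ) • 1 := by linear_combination (norm := ((try simp only [mul_add, add_mul, mul_sub, sub_mul, neg_mul, mul_neg, smul_mul_assoc, mul_smul_comm, mul_assoc, one_mul, mul_one, mul_zero, zero_mul]); module)) -e
    have k0 : κ + κ ≠ 0 := fun e => smul_one_ne (B := B) (r := 24) (by norm_num) (by
      linear_combination (norm := ((try simp only [mul_add, add_mul, mul_sub, sub_mul, neg_mul, mul_neg, smul_mul_assoc, mul_smul_comm, mul_assoc, one_mul, mul_one, mul_zero, zero_mul]); module)) I2 - (2 : ℚ) • (e * κ))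
    rcases p2 with ⟨-, e, -⟩ | ⟨-, e, -⟩ | ⟨-, e, -⟩ | ⟨-, e, -⟩ | ⟨e, -⟩
    iterate 4 exact absurd e k0
    exact absurd (by linear_combination (norm := ((try simp only [mul_add, add_mul, mul_sub, sub_mul, neg_mul, mul_neg, smul_mul_assoc, mul_smul_comm, mul_assoc, one_mul, mul_one, mul_zero, zero_mul]); module)) e - I3 + I2) (smul_one_ne (B := B) (r := 16) (by norm_num))
  · exact absurd (by linear_combination (norm := ((try simp only [mul_add, add_mul, mul_sub, sub_mul, neg_mul, mul_neg, smul_mul_assoc, mul_smul_comm, mul_assoc, one_mul, mul_one, mul_zero, zero_mul]); module)) J2 + η * e - (4 : ℚ) • e) (smul_one_ne (B := B) (r := 32) (by norm_num))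

omit S [Algebra ℚ B] [Nontrivial B] in
/-- the eight vertices of the cube -/
def cube : List (NQ B) := [⟨0, 1, 1, 1⟩, ⟨0, 1, 1, -1⟩, ⟨0, 1, -1, 1⟩, ⟨0, 1, -1, -1⟩,
  ⟨0, -1, 1, 1⟩, ⟨0, -1, 1, -1⟩, ⟨0, -1, -1, 1⟩, ⟨0, -1, -1, -1⟩]

omit S [Algebra ℚ B] [Nontrivial B] in
/-- four vertices -/
def four (φ : B) (f : B → B → NQ B) : List (NQ B) :=
  [f (1 * φ) (1 * (1 - φ)), f (1 * φ) (-1 * (1 - φ)), f (-1 * φ) (1 * (1 - φ)),
    f (-1 * φ) (-1 * (1 - φ))]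

omit S [Algebra ℚ B] [Nontrivial B] in
theorem mem_cube {b c d : B} (h : (b = 1 ∨ b = -1) ∧ (c = 1 ∨ c = -1) ∧ (d = 1 ∨ d = -1)) :
    (⟨0, b, c, d⟩ : NQ B) ∈ (cube : List (NQ B)) := by
  obtain ⟨rfl | rfl, rfl | rfl, rfl | rfl⟩ := h <;>
    simp only [cube, List.mem_cons, true_or, or_true]

omit S [Algebra ℚ B] [Nontrivial B] in
theorem mem_four (φ : B) (f : B → B → NQ B) {s t : B} (hs : s = 1 ∨ s = -1) (ht : t = 1 ∨ t = -1) :
    f (s * φ) (t * (1 - φ)) ∈ four φ f := by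
  rcases hs with rfl | rfl <;> rcases ht with rfl | rfl <;>
    simp only [four, List.mem_cons, true_or, or_true]

theorem Sys.main : (∃ T : List (NQ B), T.length = 8 ∧ ∀ c, R c → c ∈ T) ∨
    ∃ φ : B, φ * φ = φ + 1 ∧ R ⟨0, 0, φ, 1 - φ⟩ ∧
      ∃ T : List (NQ B), T.length = 20 ∧ ∀ c, R c → c ∈ T := by
  by_cases hφ : ∃ φ : B, φ * φ = φ + 1 ∧ R ⟨0, 0, φ, 1 - φ⟩
  · obtain ⟨φ, h1, h2⟩ := hφ
    refine Or.inr ⟨φ, h1, h2, cube ++ (four φ (fun p q => ⟨0, 0, p, q⟩) ++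
      (four φ (fun p q => ⟨0, q, 0, p⟩) ++ four φ (fun p q => ⟨0, p, q, 0⟩))), rfl, ?_⟩
    rintro ⟨a, b, c, d⟩ h
    obtain rfl := S.zero h
    simp only [List.mem_append]
    rcases S.classify h with h3 | ⟨ψ, h3, h4⟩
    · exact Or.inl (mem_cube h3)
    obtain rfl := S.unique h1 h3 h2 (S.of_pat h h4)
    obtain ⟨s, t, hs, ht, ⟨rfl, rfl, rfl⟩ | ⟨rfl, rfl, rfl⟩ | ⟨rfl, rfl, rfl⟩⟩ := h4
    · exact Or.inr (Or.inl (mem_four φ (fun p q => ⟨0, 0, p, q⟩) hs ht))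
    · exact Or.inr (Or.inr (Or.inl (mem_four φ (fun p q => ⟨0, q, 0, p⟩) hs ht)))
    · exact Or.inr (Or.inr (Or.inr (mem_four φ (fun p q => ⟨0, p, q, 0⟩) hs ht)))
  · refine Or.inl ⟨cube, rfl, ?_⟩
    rintro ⟨a, b, c, d⟩ h
    obtain rfl := S.zero h
    rcases S.classify h with h3 | ⟨ψ, h3, h4⟩
    · exact mem_cube h3
    · exact absurd ⟨ψ, h3, S.of_pat h h4⟩ hφ

end Cfsg.Agent.L0.Frob
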