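import Cfsg.Agent.L0.FrobQuat
import Cfsg.Agent.H4.Small
import Cfsg.Agent.H5.AutQ8
import Cfsg.Agent.H3.ClassSize2
import Cfsg.Agent.H3.CharInt
import Cfsg.Agent.H3.FrobRep
import Cfsg.Agent.S3374
import Cfsg.Agent.S3382

/-!
# Non-solvable groups with a fixed-point-free representation
-/

set_option autoImplicit false
set_option linter.unusedSimpArgs false
set_option linter.style.longLine false

namespace Cfsg.Agent.L0.Frob

open H4.Small

section SL

/-- The elements of order three of `SL(2,5)`. -/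
def K20 : List SL25 := [
    ⟨!![0, 1; 4, 4], by decide⟩, ⟨!![0, 2; 2, 4], by decide⟩, ⟨!![0, 3; 3, 4], by decide⟩,
    ⟨!![0, 4; 1, 4], by decide⟩, ⟨!![1, 1; 2, 3], by decide⟩, ⟨!![1, 2; 1, 3], by decide⟩,
    ⟨!![1, 3; 4, 3], by decide⟩, ⟨!![1, 4; 3, 3], by decide⟩, ⟨!![2, 1; 3, 2], by decide⟩,
    ⟨!![2, 2; 4, 2], by decide⟩, ⟨!![2, 3; 1, 2], by decide⟩, ⟨!![2, 4; 2, 2], by decide⟩,
    ⟨!![3, 1; 2, 1], by decide⟩, ⟨!![3, 2; 1, 1], by decide⟩, ⟨!![3, 3; 4, 1], by decide⟩,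
    ⟨!![3, 4; 3, 1], by decide⟩, ⟨!![4, 1; 4, 0], by decide⟩, ⟨!![4, 2; 2, 0], by decide⟩,
    ⟨!![4, 3; 3, 0], by decide⟩, ⟨!![4, 4; 1, 0], by decide⟩]

/-- An element of order three -/
def sw : SL25 := ⟨!![1, 2; 1, 3], by decide⟩

theorem sw_pow : sw ^ 3 = 1 := Subtype.ext (by decide)
theorem sxw : (sx * sw) ^ 2 = sy := Subtype.ext (by decide)
theorem sxw5 : sx * sw * (sx * sw) * (sx * sw) * (sx * sw) * (sx * sw) = sz :=
  Subtype.ext (by decide)

theorem K20_nodup : K20.Nodup := by decide +kernel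

theorem K20_order : ∀ A ∈ K20, A ≠ 1 ∧ A * A * A = 1 := by decide +kernel

theorem K20_pairs : ((K20 ×ˢ K20).filter fun p : SL25 × SL25 =>
    p.1 * p.2 * (p.1 * p.2) * (p.1 * p.2) * (p.1 * p.2) * (p.1 * p.2) = sz).length = 120 := by
  decide +kernel

theorem central_eq (A : SL25) (h1 : A * sx = sx * A) (h2 : A * sy = sy * A) : A ^ 2 = 1 := by
  have key : ∀ a b c d : ZMod 5, a * d - b * c = 1 → b = -c → c = 0 → a + b = b + d →
      (a = 1 ∧ b = 0 ∧ c = 0 ∧ d = 1) ∨ (a = -1 ∧ b = 0 ∧ c = 0 ∧ d = -1) := by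
    decide +kernel
  have h0 := A.det_coe
  rw [Matrix.det_fin_two] at h0
  have e1 := congrFun (congrFun (congrArg Subtype.val h1) 0) 0
  have e2 := congrFun (congrFun (congrArg Subtype.val h2) 0) 0
  have e3 := congrFun (congrFun (congrArg Subtype.val h2) 0) 1
  change (A.1 * sx.1) 0 0 = (sx.1 * A.1) 0 0 at e1
  change (A.1 * sy.1) 0 0 = (sy.1 * A.1) 0 0 at e2
  change (A.1 * sy.1) 0 1 = (sy.1 * A.1) 0 1 at e3
  simp only [Matrix.mul_apply, Fin.sum_univ_two] at e1 e2 e3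
  simp [sx, sy] at e1 e2 e3
  rcases key _ _ _ _ h0 (by linear_combination e1) e2 (by linear_combination e3) with ⟨e1, e2, e3, e4⟩ | ⟨e1, e2, e3, e4⟩
  · rw [show A = 1 by ext i j; fin_cases i <;> fin_cases j <;> simp [e1, e2, e3, e4], one_pow]
  · rw [show A = sz by ext i j; fin_cases i <;> fin_cases j <;> simp [e1, e2, e3, e4, sz], sz_pow]

theorem injective_sl25 {G : Type*} [Group G] {φ : SL25 →* G} (h1 : φ sx ≠ 1) (h2 : φ sy ≠ 1)
    (h3 : φ sz ≠ 1) : Function.Injective φ := by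
  rw [← MonoidHom.ker_eq_bot_iff]
  have d3 := φ.range.orderOf_dvd_natCard ⟨sx, rfl⟩
  have d5 := φ.range.orderOf_dvd_natCard ⟨sy, rfl⟩
  rw [orderOf_eq_prime (p := 3) (by rw [← map_pow, sx_pow, map_one]) h1] at d3
  rw [orderOf_eq_prime (p := 5) (by rw [← map_pow, sy_pow, map_one]) h2] at d5
  have h4 := φ.ker.index_mul_card
  rw [Subgroup.index_ker, card_sl25] at h4
  have h5 : ¬ 2 ∣ Nat.card φ.ker := by
    intro h
    obtain ⟨a, ha⟩ := exists_prime_orderOf_dvd_card' 2 h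
    have h6 : (a : SL25) * a = 1 := by
      have h7 := pow_orderOf_eq_one a
      rw [ha, pow_two] at h7
      exact congrArg Subtype.val h7
    rcases S3374.invol_eq _ h6 with h7 | h7
    · rw [show a = 1 from Subtype.ext h7, orderOf_one] at ha; omega
    · exact h3 (h7 ▸ a.2)
  obtain ⟨c, hc⟩ : 15 ∣ Nat.card φ.range := by omega
  rw [hc] at h4
  have h6 : Nat.card φ.ker ∣ 2 ^ 3 := ⟨c, by nlinarith⟩
  obtain ⟨k, -, hk⟩ := (Nat.dvd_prime_pow Nat.prime_two).mp h6
  refine Subgroup.eq_bot_of_card_eq _ ?_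
  rcases k with _ | k
  · exact hk
  · exact absurd (hk ▸ dvd_pow_self 2 k.succ_ne_zero) h5

end SL

theorem aut_eq {T : Type*} [Group T] [Finite T] (hT : IsPGroup 2 T)
    (h : IsCyclic T ∨ ∃ n, Nonempty (T ≃* QuaternionGroup (2 ^ (n + 1)))) (α : MulAut T) {l : ℕ}
    (h2 : l.Coprime 2) (h3 : l.Coprime 3) (hα : α ^ l = 1) (x : T) : α x = x := by
  have hl := Nat.coprime_two_right.mp h2
  rcases h with h | ⟨n, ⟨e⟩⟩
  · obtain ⟨g, hg⟩ := IsCyclic.exists_monoid_generator (α := T)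
    obtain ⟨k, hk⟩ := hg (α g)
    obtain ⟨m, rfl⟩ := hg x
    simp only [map_pow, S3382.cyc α l hl hα hT g k hk.symm]
  rcases n with _ | n
  · have h4 : α ^ 24 = 1 := by
      rw [← (Nat.card_congr (MulAut.congr e).toEquiv).trans H5.card_mulAut_Q8, pow_card_eq_one']
    have := pow_gcd_eq_one.2 ⟨hα, h4⟩
    rw [((h2.pow_right 3).mul_right h3).gcd_eq_one, pow_one] at this
    rw [this, MulAut.one_apply]
  have h4 : ∀ i, ∃ k : ℕ, QuaternionGroup.a i = (QuaternionGroup.a 1 : QuaternionGroup (2 ^ (n + 1 + 1))) ^ k :=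
    fun i => ⟨i.val, by rw [QuaternionGroup.a_one_pow, ZMod.natCast_zmod_val]⟩
  have h5 : α (e.symm (.a 1)) = e.symm (.a 1) := by
    rcases h6 : e (α (e.symm (.a 1))) with i | i
    · obtain ⟨k, hk⟩ := h4 i
      exact S3382.cyc α l hl hα hT _ k (e.injective (by rw [h6, hk]; simp))
    · have h7 := QuaternionGroup.xa_pow_four i
      rw [← h6, ← map_pow, ← map_pow, ← map_pow, map_eq_one_iff _ e.injective,
        map_eq_one_iff _ α.injective, map_eq_one_iff _ e.symm.injective,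
        ← orderOf_dvd_iff_pow_eq_one, QuaternionGroup.orderOf_a_one] at h7
      have := Nat.le_of_dvd (by norm_num) h7
      have : 0 < 2 ^ n := by positivity
      omega
  refine S3382.top_step α l hl hα hT (fun x => ∃ i, e x = .a i) ?_ ?_ x
  · rintro x ⟨i, hi⟩
    obtain ⟨k, hk⟩ := h4 i
    rw [show x = e.symm (.a 1) ^ k from e.injective (by rw [hi, hk]; simp), map_pow, h5]
  · intro x y hx hy
    rcases h6 : e x with i | i
    · exact absurd ⟨i, h6⟩ hx
    rcases h7 : e y with j | j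
    · exact absurd ⟨j, h7⟩ hy
    exact ⟨e.symm (.a (j - i)), ⟨_, e.apply_symm_apply _⟩, e.injective (by simp [h6, h7])⟩

variable {G : Type*} [Group G] [Finite G] {A : Type*} [Ring A] [Algebra ℚ A] [Nontrivial A]
  {ρ : G →* A} (hf : Fpf ρ)
include hf

omit [Finite G] [Algebra ℚ A] [Nontrivial A] in
theorem Fpf.sub (L : Subgroup G) : Fpf (ρ.comp L.subtype) :=
  fun g hg => hf g fun h => hg (Subtype.ext h)

theorem Fpf.pNil {L : Subgroup G} (h : ∀ g ∈ L, orderOf g ≠ 3) : H9.PNil 2 L := by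
  refine H9.FrobHyp.pNil fun X _ hX g hg h2 hn x hx => ?_
  have h3 : (orderOf g).Coprime 3 := by
    rw [Nat.coprime_comm, Nat.prime_three.coprime_iff_not_dvd]
    intro h3
    exact h _ (L.pow_mem hg _) (orderOf_pow_orderOf_div (orderOf_pos g).ne' h3)
  have := aut_eq hX ((hf.cyclic_or_quaternion Nat.prime_two hX).imp_right And.right)
    (X.normalizerMonoidHom ⟨g, hn⟩) h2 h3 (by
      rw [← map_pow, ← map_one X.normalizerMonoidHom]
      exact congrArg _ (Subtype.ext (pow_orderOf_eq_one g))) ⟨x, hx⟩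
  exact mul_inv_eq_iff_eq_mul.mp (congrArg Subtype.val this)

theorem Fpf.isZGroup (h : (Nat.card G).Coprime 2) : IsZGroup G := by
  refine ⟨fun p hp P => (hf.cyclic_or_quaternion hp P.2).resolve_right ?_⟩
  rintro ⟨-, n, ⟨e⟩⟩
  have h1 := (Nat.coprime_two_right.mp h).of_dvd_nat (Subgroup.card_subgroup_dvd_card (P : Subgroup G))
  rw [Nat.card_congr e.toEquiv, Nat.card_eq_fintype_card, QuaternionGroup.card] at h1
  exact (Nat.not_odd_iff_even.mpr ⟨2 * 2 ^ (n + 1), by ring⟩) h1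

theorem Fpf.isSolvable (h : ∀ g : G, orderOf g ≠ 3) : Group.IsSolvable G := by
  have h1 := hf.pNil (L := ⊤) fun g _ => h g
  have : h1.compl.Normal := ⟨fun x hx g => ⟨trivial, by rw [H9.orderOf_conj_eq]; exact hx.2⟩⟩
  have := (hf.sub h1.compl).isZGroup h1.coprime_card_compl
  have h2 : IsPGroup 2 (G ⧸ h1.compl) := fun x => by
    obtain ⟨x, rfl⟩ := QuotientGroup.mk_surjective x
    obtain ⟨n, hn⟩ := H9.exists_pow_coprime 2 x
    exact ⟨n, (QuotientGroup.eq_one_iff (x ^ 2 ^ n)).mpr ⟨trivial, hn⟩⟩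
  have := h2.isNilpotent
  exact Group.isSolvable_of_ker_le_range h1.compl.subtype (QuotientGroup.mk' h1.compl) (by simp)

theorem Fpf.perfect (hp : commutator G = ⊤) (h8 : {w : G | orderOf w = 3}.ncard ≤ 8) :
    Group.IsSolvable G := by
  refine hf.isSolvable fun x hx => ?_
  have hx1 := (o3 hx).1
  have hx3 := (o3 hx).2
  let D := Subgroup.normalizer (Subgroup.zpowers x : Set G)
  have hD : ∀ {g y}, y = x ∨ y = x⁻¹ → g * y * g⁻¹ ∈ Subgroup.zpowers x → g ∈ D := by
    intro g y hy h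
    have h1 : g * x * g⁻¹ ∈ Subgroup.zpowers x := by
      rcases hy with rfl | rfl
      · exact h
      · simpa [mul_assoc] using inv_mem h
    refine H9.mem_normalizer_of_conj_mem ?_
    rintro _ ⟨k, rfl⟩
    simpa using zpow_mem h1 k
  have hi : D.index * 2 ≤ 8 := by
    refine le_trans ?_ h8
    rw [← Nat.card_coe_set_eq, Subgroup.index, ← Nat.card_eq_fintype_card.trans Fintype.card_bool,
      ← Nat.card_prod]
    have hy : ∀ b : Bool, cond b x x⁻¹ = x ∨ cond b x x⁻¹ = x⁻¹ := fun b => by cases b <;> simp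
    refine Nat.card_le_card_of_injective (fun p => ⟨p.1.out * cond p.2 x x⁻¹ * p.1.out⁻¹, by
      rcases hy p.2 with h | h <;> simp [h, H9.orderOf_conj_eq, hx]⟩) ?_
    rintro ⟨p, b⟩ ⟨q, c⟩ h
    have h1 : p.out * cond b x x⁻¹ * p.out⁻¹ = q.out * cond c x x⁻¹ * q.out⁻¹ :=
      congrArg Subtype.val h
    obtain rfl : p = q := by
      rw [← p.out_eq, ← q.out_eq]
      refine QuotientGroup.eq.mpr (hD (hy c) ?_)
      rw [show p.out⁻¹ * q.out * cond c x x⁻¹ * (p.out⁻¹ * q.out)⁻¹ = cond b x x⁻¹ by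
        rw [show cond b x x⁻¹ = p.out⁻¹ * (p.out * cond b x x⁻¹ * p.out⁻¹) * p.out by group, h1]
        group]
      rcases hy b with h | h <;> simp [h]
    have h2 : x ≠ x⁻¹ := fun e => hx1 (by
      rw [← hx3, pow_three]; nth_rw 3 [e]; simp)
    simp only [mul_left_inj, mul_right_inj] at h1
    cases b <;> cases c <;> simp_all [eq_comm]
  have hD' : D = ⊤ := by
    have h1 : D.normalCore.index ∣ 2 ^ 3 * 3 ^ 1 := by
      rw [Subgroup.normalCore_eq_ker, Subgroup.index_ker]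
      refine (Subgroup.card_subgroup_dvd_card _).trans ?_
      rw [Nat.card_perm]
      exact Nat.factorial_dvd_factorial (n := 4) (show D.index ≤ 4 by omega)
    have := H3.isSolvable_of_card_dvd_prime_pow_mul (G := G ⧸ D.normalCore) Nat.prime_two
      Nat.prime_three h1
    by_contra h2
    have : Nontrivial (G ⧸ D.normalCore) := QuotientGroup.nontrivial_iff.mpr
      fun h => h2 (top_le_iff.mp (h ▸ D.normalCore_le))
    have h3 := Group.IsSolvable.commutator_lt_top_of_nontrivial (G ⧸ D.normalCore)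
    have h4 := map_commutator_eq G (QuotientGroup.mk' D.normalCore)
    rw [hp, ← MonoidHom.range_eq_map, QuotientGroup.range_mk'] at h4
    exact h3.ne h4.symm
  have : (Subgroup.zpowers x).Normal := Subgroup.normalizer_eq_top_iff.mp hD'
  have hc : x ∈ Subgroup.center G := by
    let _ := (IsCyclic.mulAutMulEquiv (Subgroup.zpowers x)).toMonoidHom.commGroupOfInjective
      (MulEquiv.injective _)
    have h1 := Abelianization.commutator_subset_ker (MulAut.conjNormal (H := Subgroup.zpowers x))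
    rw [hp] at h1
    refine Subgroup.mem_center_iff.mpr fun g => ?_
    have h2 := congrArg (fun α : MulAut (Subgroup.zpowers x) => (α ⟨x, Subgroup.mem_zpowers x⟩ : G))
      (h1 (Subgroup.mem_top g))
    exact mul_inv_eq_iff_eq_mul.mp h2
  have : Fact (Nat.Prime 3) := ⟨Nat.prime_three⟩
  obtain ⟨P⟩ : Nonempty (Sylow 3 G) := inferInstance
  have hP := (hf.cyclic_or_quaternion Nat.prime_three P.2).resolve_right (by simp)
  have h1 := H3.pow_index_eq_one_of_comm (H := P) (fun a ha b hb => congrArg Subtype.val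
    (hP.isMulCommutative.is_comm.comm (⟨a, ha⟩ : P) ⟨b, hb⟩)) hc (hp ▸ Subgroup.mem_top x)
  exact P.not_dvd_index (hx.symm.dvd.trans (orderOf_dvd_of_pow_eq_one h1))

theorem Fpf.exists_sl25 (hns : ¬ Group.IsSolvable G) : ∃ φ : SL25 →* G, Function.Injective φ ∧
    ρ (φ sz) = -1 ∧ ∀ w, orderOf w = 3 → ∃ u ∈ K20, φ u = w := by
  rcases hf.card_three with h8 | ⟨h20, w, f, z, hw, hf1, hf5, hz, hwf⟩
  · refine absurd (Group.isSolvable_iff_commutator_lt.mpr fun L hL => ?_) hns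
    refine lt_of_le_of_ne (Subgroup.commutator_le_self L) fun h => ?_
    have := Subgroup.isPerfect_iff.mpr h
    have := (Subgroup.nontrivial_iff_ne_bot L).mpr hL
    refine Group.IsPerfect.not_isSolvable L ((hf.sub L).perfect Group.IsPerfect.commutator_eq_top
      (le_trans ?_ h8))
    exact Set.ncard_le_ncard_of_injOn Subtype.val (fun x hx => (Subgroup.orderOf_coe x).trans hx)
      Subtype.val_injective.injOn
  have hc : ∀ g, z * g = g * z := fun g => hf.inj (by simp [hz])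
  obtain ⟨φ, h1, h2, h3⟩ := exists_hom_sl25 (o3 hw).2 hf5 (hf.inj (by simp [hz])) (hc w) (hc f) hwf
  have hz1 : z ≠ 1 := fun h => smul_one_ne (B := A) (r := 2) two_ne_zero (by
    rw [h, map_one] at hz; linear_combination (norm := module) hz)
  have hφ := injective_sl25 (h1 ▸ (o3 hw).1) (h2 ▸ hf1) (h3 ▸ hz1)
  refine ⟨φ, hφ, h3 ▸ hz, fun v hv => ?_⟩
  classical
  have h4 : ((K20.toFinset.image φ : Finset G) : Set G) = {w : G | orderOf w = 3} := by
    refine Set.eq_of_subset_of_ncard_le (fun x hx => ?_) (h20.trans_eq ?_)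
    · obtain ⟨u, hu, rfl⟩ := Finset.mem_image.mp hx
      obtain ⟨e1, e2⟩ := K20_order u (List.mem_toFinset.mp hu)
      exact (orderOf_injective φ hφ u).trans (orderOf_eq_prime (by rw [← e2, pow_three']) e1)
    · rw [Set.ncard_coe_finset, Finset.card_image_of_injective _ hφ,
        List.toFinset_card_of_nodup K20_nodup]
      rfl
  obtain ⟨u, hu, e⟩ := Finset.mem_image.mp (h4.ge hv)
  exact ⟨u, List.mem_toFinset.mp hu, e⟩

theorem Fpf.main (hns : ¬ Group.IsSolvable G) :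
    ∃ G₀ : Subgroup G, G₀.Normal ∧ (G₀.index = 1 ∨ G₀.index = 2) ∧
      ∃ S M : Subgroup G, S ⊔ M = G₀ ∧ S ⊓ M = ⊥ ∧ (∀ s ∈ S, ∀ x ∈ M, s * x = x * s) ∧
        Nonempty (S ≃* Matrix.SpecialLinearGroup (Fin 2) (ZMod 5)) ∧
        (∀ (p : ℕ) [Fact p.Prime] (P : Sylow p M), IsCyclic P) ∧ (Nat.card M).Coprime 30 := by
  obtain ⟨φ, hφ, hz, hK⟩ := hf.exists_sl25 hns
  have ox : orderOf (φ sx) = 3 :=
    (orderOf_injective φ hφ _).trans (orderOf_eq_prime sx_pow (by decide))
  have ow : orderOf (φ sw) = 3 :=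
    (orderOf_injective φ hφ _).trans (orderOf_eq_prime sw_pow (by decide))
  have gen : ∀ N : Subgroup G, φ sx ∈ N → φ sw ∈ N → φ.range ≤ N := fun N h1 h2 => by
    rw [MonoidHom.range_eq_map, Subgroup.map_le_iff_le_comap, ← closure_sxy, Subgroup.closure_le]
    have h3 : sy ∈ N.comap φ := sxw ▸ pow_mem (mul_mem (s := N.comap φ) h1 h2) 2
    rintro _ (rfl | rfl | rfl)
    exacts [h1, h3, sxy ▸ pow_mem (mul_mem (s := N.comap φ) h1 h3) 2]
  have hK' : ∀ w, orderOf w = 3 → w ∈ φ.range := fun w hw => (hK w hw).imp fun _ h => h.2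
  have hS : φ.range.Normal := ⟨fun s hs g => gen (φ.range.comap (MulAut.conj g).toMonoidHom)
    (hK' _ ((H9.orderOf_conj_eq _ _).trans ox)) (hK' _ ((H9.orderOf_conj_eq _ _).trans ow)) hs⟩
  let C := Subgroup.centralizer (φ.range : Set G)
  have hSC : ∀ c ∈ C, c ∈ φ.range → c ^ 2 = 1 := by
    rintro _ hc ⟨u, rfl⟩
    rw [← map_pow, central_eq u (hφ (by simpa using (hc _ ⟨sx, rfl⟩).symm))
      (hφ (by simpa using (hc _ ⟨sy, rfl⟩).symm)), map_one]
  have inv : ∀ c : G, c ^ 2 = 1 → c = 1 ∨ c = φ sz := fun c hc =>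
    or_iff_not_imp_left.mpr fun h => hf.inj ((hf.invol h hc).trans hz.symm)
  have inv' : ∀ c : G, c ^ 2 = 1 → c ∈ φ.range := fun c hc => by
    rcases inv c hc with rfl | rfl
    exacts [one_mem _, ⟨_, rfl⟩]
  have h3 : ∀ c ∈ C, orderOf c ≠ 3 := fun c hc h =>
    absurd (h ▸ orderOf_dvd_of_pow_eq_one (hSC c hc (hK' c h))) (by norm_num)
  have h5 : ∀ c ∈ C, orderOf c ≠ 5 := fun c hc h => by
    have := hf.mem_zpowers (p := 5) (by norm_num) (z := φ sy) (y := c)
      (fun e => absurd (hφ (e.trans φ.map_one.symm)) (by decide)) (by rw [← map_pow, sy_pow, map_one])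
      (h ▸ pow_orderOf_eq_one c) (hc _ ⟨sy, rfl⟩)
    exact absurd (h ▸ orderOf_dvd_of_pow_eq_one (hSC c hc
      ((Subgroup.zpowers_le.mpr ⟨sy, rfl⟩ : _ ≤ φ.range) this))) (by norm_num)
  have h4 : ∀ c ∈ C, orderOf c ≠ 4 := fun c hc h => by
    have e1 : c ^ 2 ≠ 1 := fun e => absurd (h ▸ orderOf_dvd_of_pow_eq_one e) (by norm_num)
    have e2 := (inv (c ^ 2) (by rw [← pow_mul, ← pow_orderOf_eq_one c, h])).resolve_left e1
    have e3 := inv' (φ (sx * sy) * c) (by
      rw [Commute.mul_pow (hc _ ⟨_, rfl⟩), e2, ← map_pow, sxy, ← map_mul, ← pow_two, sz_pow, map_one])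
    exact e1 (hSC c hc ((φ.range.mul_mem_cancel_left ⟨_, rfl⟩).mp e3))
  have hN := hf.pNil h3
  have hM2 := hN.coprime_card_compl
  have hSM : φ.range ⊔ hN.compl = φ.range ⊔ C := by
    refine le_antisymm (sup_le_sup_left hN.compl_le _) (sup_le le_sup_left fun c hc => ?_)
    have h0 := orderOf_pos c
    by_cases h2 : (orderOf c).Coprime 2
    · exact Subgroup.mem_sup_right ⟨hc, h2⟩
    obtain ⟨m, hm⟩ : 2 ∣ orderOf c := even_iff_two_dvd.mp (by simpa using h2)
    have hm2 : ¬ 2 ∣ m := fun e => h4 _ (C.pow_mem hc _)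
      (orderOf_pow_orderOf_div h0.ne' (by omega))
    have e1 := inv' (c ^ m) (by rw [← pow_mul', ← hm, pow_orderOf_eq_one])
    have e2 : c ^ (m + 1) ∈ hN.compl := ⟨C.pow_mem hc _,
      (Nat.coprime_two_right.mpr (Nat.odd_iff.mpr (by omega : m % 2 = 1))).coprime_dvd_left
        (orderOf_dvd_of_pow_eq_one (by
          rw [← pow_mul, ← orderOf_dvd_iff_pow_eq_one, hm]
          exact Nat.mul_dvd_mul_right (by omega) m))⟩
    rw [show c = (c ^ m)⁻¹ * c ^ (m + 1) by group]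
    exact Subgroup.mul_mem_sup (inv_mem e1) e2
  have hC : C.index ≤ 120 := by
    classical
    choose! ψ hψ hψ' using hK
    rw [← K20_pairs, Subgroup.index]
    refine le_trans ?_ (List.toFinset_card_le _)
    rw [← Nat.card_eq_finsetCard]
    have o1 : ∀ g : G, orderOf (g * φ sx * g⁻¹) = 3 := fun g => (H9.orderOf_conj_eq _ _).trans ox
    have o2 : ∀ g : G, orderOf (g * φ sw * g⁻¹) = 3 := fun g => (H9.orderOf_conj_eq _ _).trans ow
    refine Nat.card_le_card_of_injective (fun q : G ⧸ C => ⟨(ψ (q.out * φ sx * q.out⁻¹),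
      ψ (q.out * φ sw * q.out⁻¹)), ?_⟩) fun p q h => ?_
    · simp only [List.mem_toFinset, List.mem_filter, decide_eq_true_eq]
      refine ⟨List.mem_product.mpr ⟨hψ _ (o1 _), hψ _ (o2 _)⟩, hφ ?_⟩
      have e1 := congrArg φ sxw5
      have e2 : q.out * φ sz * q.out⁻¹ = φ sz := hf.inj (by simp [hz, rinv])
      simp only [map_mul, hψ' _ (o1 _), hψ' _ (o2 _)] at e1 ⊢
      rw [← e2, ← e1]
      group
    · have e := Prod.mk.inj (congrArg Subtype.val h)
      have e1 := congrArg φ e.1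
      have e2 := congrArg φ e.2
      rw [hψ' _ (o1 _), hψ' _ (o1 _)] at e1
      rw [hψ' _ (o2 _), hψ' _ (o2 _)] at e2
      rw [← p.out_eq, ← q.out_eq]
      refine QuotientGroup.eq.mpr fun s hs => ?_
      have k : ∀ t, p.out * t * p.out⁻¹ = q.out * t * q.out⁻¹ →
          t ∈ Subgroup.centralizer {p.out⁻¹ * q.out} := fun t ht => by
        rw [Subgroup.mem_centralizer_singleton_iff]
        calc _ = p.out⁻¹ * (p.out * t * p.out⁻¹) * q.out := by group
          _ = _ := by rw [ht]; group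
      exact Subgroup.mem_centralizer_singleton_iff.mp (gen _ (k _ e1) (k _ e2) hs)
  have hI : (φ.range ⊔ C).index * 60 ≤ 120 := by
    have e1 := Subgroup.relIndex_mul_index (le_sup_right : C ≤ φ.range ⊔ C)
    rw [Subgroup.relIndex_sup_right] at e1
    have e2 := (C.subgroupOf φ.range).index_mul_card
    rw [← Nat.card_congr (MonoidHom.ofInjective hφ).toEquiv, card_sl25] at e2
    have e3 : Nat.card (C.subgroupOf φ.range) ≤ 2 := by
      classical
      refine (Nat.card_le_card_of_injective (fun c : C.subgroupOf φ.range => decide ((c : G) = 1))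
        fun c d h => ?_).trans_eq
        (Nat.card_eq_fintype_card.trans Fintype.card_bool)
      have h1 := inv _ (hSC _ c.2 c.1.2)
      have h2 := inv _ (hSC _ d.2 d.1.2)
      have h3 : ((c : φ.range) : G) = 1 ↔ ((d : φ.range) : G) = 1 := decide_eq_decide.mp h
      refine Subtype.ext (Subtype.ext ?_)
      by_cases h4 : ((c : φ.range) : G) = 1
      · rw [h4, h3.mp h4]
      · exact (h1.resolve_left h4).trans (h2.resolve_left (mt h3.mpr h4)).symm
    have e4 : 60 ≤ C.relIndex φ.range := by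
      unfold Subgroup.relIndex
      nlinarith
    nlinarith
  refine ⟨φ.range ⊔ C, inferInstance, ?_, φ.range, hN.compl, hSM, ?_, fun s hs x hx => hx.1 s hs,
    ⟨(MonoidHom.ofInjective hφ).symm⟩, fun p hp P => ?_, ?_⟩
  · have := (φ.range ⊔ C).index_ne_zero_of_finite
    omega
  · refine eq_bot_iff.mpr fun x hx => orderOf_eq_one_iff.mp ?_
    exact hx.2.2.eq_one_of_dvd (orderOf_dvd_of_pow_eq_one (hSC x hx.2.1 hx.1))
  · exact ((hf.sub _).isZGroup hM2).isZGroup p hp.out P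
  · have : Fact (Nat.Prime 3) := ⟨Nat.prime_three⟩
    have k : ∀ p, p.Prime → (∀ c ∈ C, orderOf c ≠ p) → (Nat.card hN.compl).Coprime p := by
      intro p hp h
      have := Fact.mk hp
      rw [Nat.coprime_comm, hp.coprime_iff_not_dvd]
      intro hd
      obtain ⟨x, hx⟩ := exists_prime_orderOf_dvd_card' p hd
      exact h x x.2.1 ((Subgroup.orderOf_coe x).trans hx)
    exact (hM2.mul_right (k 3 Nat.prime_three h3)).mul_right (k 5 (by norm_num) h5)

omit hf in
theorem exists_fpf {L : Type*} [Group L] [Finite L] {H : Subgroup L} (hH : IsFrobeniusComplement H)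
    (e : G ≃* H) : ∃ (n : ℕ) (ρ : G →* Matrix (Fin n) (Fin n) ℚ), 0 < n ∧ Fpf ρ := by
  obtain ⟨φ, h0, hφ⟩ := H3.exists_ne_zero_normElt_mul_of_frobenius hH e ℚ
  obtain ⟨n, ρ, hn, -, -, h⟩ := H3.exists_fpf_matrix_rep h0 hφ
  refine ⟨n, (Units.coeHom _).comp ρ, hn, fun g hg => ?_⟩
  rw [← Matrix.mulVec_injective_iff_isUnit, ← Matrix.coe_mulVecLin, injective_iff_map_eq_zero]
  intro v hv
  refine h g hg v ?_
  simpa [Matrix.sub_mulVec, sub_eq_zero] using hv

end Cfsg.Agent.L0.Frob
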