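import Mathlib
import Cfsg.Agent.H3.FrobCompl

/-!
# Fixed-point-free representations: products of two elements of order three
-/

set_option autoImplicit false
set_option linter.unusedSimpArgs false
set_option linter.style.longLine false

namespace Cfsg.Agent.L0.Frob

open Polynomial

variable {G : Type*} [Group G] {A : Type*} [Ring A] [Algebra ℚ A]

/-- fixed-point-free representation -/
def Fpf (ρ : G →* A) : Prop := ∀ g, g ≠ 1 → IsUnit (ρ g - 1)

variable {ρ : G →* A} (hf : Fpf ρ)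
include hf

omit [Algebra ℚ A] in
theorem Fpf.cancel {g : G} (hg : g ≠ 1) {a : A} (h : (ρ g - 1) * a = 0) : a = 0 :=
  (hf g hg).mul_right_eq_zero.mp h

omit [Algebra ℚ A] in
theorem Fpf.inj [Nontrivial A] : Function.Injective ρ :=
  (injective_iff_map_eq_one ρ).mpr fun g hg => by
    by_contra h
    have := hf g h
    rw [hg, sub_self] at this
    exact not_isUnit_zero this

omit [Algebra ℚ A] in
theorem Fpf.geom {g : G} (hg : g ≠ 1) {n : ℕ} (h : g ^ n = 1) :
    ∑ i ∈ Finset.range n, ρ g ^ i = 0 :=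
  hf.cancel hg (by rw [mul_geom_sum, ← map_pow, h, map_one, sub_self])

omit [Algebra ℚ A] in
theorem Fpf.invol {g : G} (hg : g ≠ 1) (h : g ^ 2 = 1) : ρ g = -1 := by
  have := hf.geom hg h
  simp only [Finset.sum_range_succ, Finset.range_zero, Finset.sum_empty, pow_zero, pow_one,
    zero_add] at this
  exact eq_neg_of_add_eq_zero_right this

omit [Algebra ℚ A] in
theorem Fpf.three {g : G} (hg : g ≠ 1) (h : g ^ 3 = 1) : ρ g * ρ g = -ρ g - 1 := by
  have := hf.geom hg h
  simp only [Finset.sum_range_succ, Finset.range_zero, Finset.sum_empty, pow_zero, pow_one,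
    zero_add, pow_two] at this
  linear_combination (norm := abel) this

omit [Algebra ℚ A] in
theorem Fpf.three_inv {g : G} (hg : g ≠ 1) (h : g ^ 3 = 1) : ρ g⁻¹ = -ρ g - 1 := by
  rw [← hf.three hg h, ← map_mul, inv_eq_of_mul_eq_one_right (b := g * g) (by rw [← h, pow_three])]

theorem Fpf.mem_zpowers [Nontrivial A] {p : ℕ} (hp : p.Prime) {z y : G}
    (hz1 : z ≠ 1) (hzp : z ^ p = 1) (hyp : y ^ p = 1) (hc : z * y = y * z) :
    y ∈ Subgroup.zpowers z := by
  have : Fact p.Prime := ⟨hp⟩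
  by_contra hyz
  have hzo : orderOf z = p := orderOf_eq_prime hzp hz1
  let σ : G →* AddMonoid.End A := (Module.toAddMonoidEnd A A).toMonoidHom.comp ρ
  have hfix : ∀ g, g ≠ 1 → ∀ v, σ g v = v → v = 0 := fun g hg v hv =>
    hf.cancel hg (by rw [sub_mul, one_mul, sub_eq_zero]; exact hv)
  have key := H3.nsmul_eq_zero_of_pp hp.pos (y := σ y) (z := σ z) (Commute.map hc.symm σ)
    (by rw [← map_pow, hyp, map_one]) (by rw [← map_pow, hzp, map_one])
    (fun s hs hsp => by
      rw [← map_pow]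
      refine hfix _ (fun h => ?_)
      have := Nat.le_of_dvd hs (hzo ▸ orderOf_dvd_of_pow_eq_one h)
      omega)
    (fun i _ => by
      rw [← map_pow, ← map_mul]
      refine hfix _ (fun h => hyz ?_)
      rw [eq_inv_of_mul_eq_one_left h]
      exact Subgroup.inv_mem _ (Subgroup.pow_mem _ (Subgroup.mem_zpowers z) i)) 1
  rw [← Nat.cast_smul_eq_nsmul ℚ] at key
  simp [hp.ne_zero] at key

theorem Fpf.cyclic_or_quaternion [Nontrivial A] [Finite G] {p : ℕ} (hp : p.Prime) {P : Subgroup G}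
    (hP : IsPGroup p P) :
    IsCyclic P ∨ (p = 2 ∧ ∃ n, Nonempty (P ≃* QuaternionGroup (2 ^ (n + 1)))) := by
  have : Fact p.Prime := ⟨hp⟩
  refine H5.cyclic_or_quaternion_of_unique hP (fun z y hz1 hz hy hc => ?_)
  obtain ⟨k, hk⟩ := hf.mem_zpowers hp
    (fun h => hz1 (Subtype.ext h)) (congrArg Subtype.val hz) (congrArg Subtype.val hy)
    (congrArg Subtype.val hc)
  exact ⟨k, Subtype.ext hk⟩

theorem Fpf.aeval_cyclotomic [Finite G] (g : G) : aeval (ρ g) (cyclotomic (orderOf g) ℚ) = 0 := by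
  have hn := orderOf_pos g
  have h1 : IsUnit (aeval (ρ g) (∏ i ∈ (orderOf g).properDivisors, cyclotomic i ℚ)) := by
    refine Finset.prod_induction _ (fun p => IsUnit (aeval (ρ g) p))
      (fun a b ha hb => by rw [map_mul]; exact ha.mul hb) (by simp) fun i hi => ?_
    obtain ⟨q, hq⟩ := cyclotomic.dvd_X_pow_sub_one i ℚ
    have hi' := Nat.mem_properDivisors.mp hi
    have h2 := hf (g ^ i) (pow_ne_one_of_lt_orderOf (Nat.pos_of_dvd_of_pos hi'.1 hn).ne' hi'.2)
    have h3 : ρ (g ^ i) - 1 = aeval (ρ g) (cyclotomic i ℚ) * aeval (ρ g) q := by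
      rw [← map_mul, ← hq]; simp
    rw [h3] at h2
    exact ((Commute.map (Commute.all _ _) (aeval (ρ g) : ℚ[X] →ₐ[ℚ] A)).isUnit_mul_iff.mp h2).1
  apply h1.mul_right_eq_zero.mp
  rw [← map_mul, mul_comm, ← Finset.prod_insert (f := fun i => cyclotomic i ℚ)
    Nat.self_notMem_properDivisors, Nat.insert_self_properDivisors hn.ne',
    prod_cyclotomic_eq_X_pow_sub_one hn, map_sub, map_pow, aeval_X, ← map_pow, pow_orderOf_eq_one]
  simp

omit hf in
theorem aeval_dickson {u v : A} (h : u * v = 1) (h' : v * u = 1) :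
    ∀ n, aeval (u + v) (dickson 1 (1 : ℚ) n) = u ^ n + v ^ n
  | 0 => by simp [dickson_zero, map_ofNat]; norm_num
  | 1 => by simp
  | n + 2 => by
    have h1 : u * v ^ (n + 1) = v ^ n := by rw [pow_succ', ← mul_assoc, h, one_mul]
    have h2 : v * u ^ (n + 1) = u ^ n := by rw [pow_succ', ← mul_assoc, h', one_mul]
    simp only [dickson_add_two, map_sub, map_mul, aeval_X, aeval_dickson h h' (n + 1),
      aeval_dickson h h' n, map_one, one_mul, add_mul, mul_add, h1, h2, ← pow_succ']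
    abel

omit hf in
theorem two_lt_dickson {t : ℝ} (ht : 2 < t) : ∀ n, 2 ≤ aeval t (dickson 1 (1 : ℚ) n) ∧
    aeval t (dickson 1 (1 : ℚ) n) < aeval t (dickson 1 (1 : ℚ) (n + 1))
  | 0 => by simp [dickson_zero, map_ofNat]; norm_num [ht]
  | n + 1 => by
    obtain ⟨h1, h2⟩ := two_lt_dickson ht n
    simp only [dickson_add_two, map_sub, map_mul, aeval_X, map_one, one_mul]
    constructor <;> nlinarith

omit hf in
theorem cos_lt {n k : ℕ} (h1 : n < 3 * k) (h2 : 2 * k ≤ n) :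
    Real.cos (2 * Real.pi * (k / n)) < -(1 / 2) := by
  have hn : (0 : ℝ) < n := by exact_mod_cast (show 0 < n by omega)
  have e : Real.cos (2 * Real.pi / 3) = -(1 / 2) := by
    rw [show 2 * Real.pi / 3 = Real.pi - Real.pi / 3 by ring, Real.cos_pi_sub, Real.cos_pi_div_three]
  rw [← e]
  have h3 : (1 : ℝ) / 3 < k / n := by
    rw [div_lt_div_iff₀ (by norm_num) hn]; exact_mod_cast (by omega)
  have h4 : (k : ℝ) / n ≤ 1 / 2 := by
    rw [div_le_div_iff₀ hn (by norm_num)]; exact_mod_cast (by omega)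
  have := Real.pi_pos
  exact Real.cos_lt_cos_of_nonneg_of_le_pi (by positivity) (by nlinarith) (by nlinarith)

omit hf in
theorem exists_coprime {n : ℕ} (h0 : 0 < n) (h : ¬ (n = 1 ∨ n = 3 ∨ n = 4 ∨ n = 6 ∨ n = 10)) :
    ∃ k, k.Coprime n ∧ n < 3 * k ∧ 2 * k ≤ n := by
  by_cases h2 : n = 2
  · exact ⟨1, by simp, by omega, by omega⟩
  obtain ⟨m, rfl | rfl⟩ := n.even_or_odd'
  · obtain ⟨l, rfl | rfl⟩ := m.even_or_odd'
    · obtain ⟨l, rfl⟩ : ∃ k, l = k + 1 := ⟨l - 1, by omega⟩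
      refine ⟨2 * l + 1, ?_, by omega, by omega⟩
      rw [show 2 * (2 * (l + 1)) = 2 + (2 * l + 1) * 2 by ring, Nat.coprime_add_mul_left_right]
      simp
    · obtain ⟨l, rfl⟩ : ∃ k, l = k + 1 := ⟨l - 1, by omega⟩
      refine ⟨2 * l + 1, ?_, by omega, by omega⟩
      rw [show 2 * (2 * (l + 1) + 1) = 2 ^ 2 + (2 * l + 1) * 2 by ring,
        Nat.coprime_add_mul_left_right]
      exact Nat.Coprime.pow_right _ (by simp)
  · refine ⟨m, ?_, by omega, by omega⟩
    rw [show 2 * m + 1 = 1 + m * 2 by ring, Nat.coprime_add_mul_left_right]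
    simp

theorem Fpf.order_of_tau [Nontrivial A] [Finite G] {g h : G}
    (e : ρ h + ρ h⁻¹ = 1 - ρ g - ρ g⁻¹) :
    orderOf g = 1 ∨ orderOf g = 3 ∨ orderOf g = 4 ∨ orderOf g = 6 ∨ orderOf g = 10 := by
  by_contra hn
  have h0 := orderOf_pos g
  obtain ⟨k, hk, h1, h2⟩ := exists_coprime h0 hn
  have hmin : cyclotomic (orderOf g) ℚ = minpoly ℚ (ρ g) := minpoly.eq_of_irreducible_of_monic
    (cyclotomic.irreducible_rat h0) (hf.aeval_cyclotomic g) (cyclotomic.monic _ _)
  obtain ⟨n, hn'⟩ : ∃ n, orderOf g = n + 1 := ⟨orderOf g - 1, by omega⟩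
  have hg : ρ g⁻¹ = ρ g ^ n := by
    rw [← map_pow, inv_eq_of_mul_eq_one_left (a := g ^ n) (b := g)
      (by rw [← pow_succ, ← hn', pow_orderOf_eq_one])]
  have h3 : aeval (ρ g) ((dickson 1 (1 : ℚ) (orderOf h)).comp (1 - X - X ^ n) - 2) = 0 := by
    rw [map_sub, aeval_comp, map_sub, map_sub, map_one, map_pow, aeval_X, ← hg, ← e,
      aeval_dickson (by rw [← map_mul]; simp) (by rw [← map_mul]; simp), ← map_pow, ← map_pow,
      inv_pow, pow_orderOf_eq_one, inv_one, map_one, map_ofNat]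
    norm_num
  have hζ := Complex.isPrimitiveRoot_exp_of_coprime k _ h0.ne' hk
  generalize hθ : 2 * Real.pi * ((k : ℝ) / orderOf g) = θ
  have hζ' : Complex.exp (2 * Real.pi * Complex.I * (k / orderOf g)) = Complex.exp (θ * Complex.I) := by
    rw [← hθ]; push_cast; ring_nf
  rw [hζ'] at hζ
  have h4 : aeval (Complex.exp (θ * Complex.I))
      ((dickson 1 (1 : ℚ) (orderOf h)).comp (1 - X - X ^ n) - 2) = 0 := by
    obtain ⟨q, hq⟩ := hmin ▸ minpoly.dvd ℚ _ h3
    rw [hq, map_mul, aeval_def, ← eval_map, map_cyclotomic,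
      (hζ.isRoot_cyclotomic h0).eq_zero, zero_mul]
  have h5 : Complex.exp (θ * Complex.I) ^ n = Complex.exp (-θ * Complex.I) := by
    rw [neg_mul, Complex.exp_neg]
    exact eq_inv_of_mul_eq_one_left (by rw [← pow_succ, ← hn', hζ.pow_eq_one])
  have h6 : 1 - Complex.exp (θ * Complex.I) - Complex.exp (-θ * Complex.I) =
      algebraMap ℝ ℂ (1 - 2 * Real.cos θ) := by
    simp [Complex.two_cos, sub_sub]
  rw [map_sub, aeval_comp, map_sub, map_sub, map_one, map_pow, aeval_X, h5, h6,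
    aeval_algebraMap_apply, map_ofNat, sub_eq_zero] at h4
  have h7 : aeval (1 - 2 * Real.cos θ) (dickson 1 (1 : ℚ) (orderOf h)) = 2 := by
    apply (algebraMap ℝ ℂ).injective; rw [h4, map_ofNat]
  obtain ⟨m, hm⟩ : ∃ m, orderOf h = m + 1 := ⟨orderOf h - 1, by have := orderOf_pos h; omega⟩
  have h8 := cos_lt h1 h2
  rw [hθ] at h8
  have := two_lt_dickson (t := 1 - 2 * Real.cos θ) (by linarith) m
  rw [hm] at h7
  linarith

end Cfsg.Agent.L0.Frob
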