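import Cfsg.Agent.L0.FrobAlg
import Cfsg.Agent.L0.FrobOrd
import Cfsg.Agent.H9.PNil

/-!
# The elements of order three of a group with a fixed-point-free representation
-/

set_option autoImplicit false
set_option linter.unusedSimpArgs false
set_option linter.style.longLine false

namespace Cfsg.Agent.L0.Frob

variable {G : Type*} [Group G] {A : Type*} [Ring A] [Algebra ℚ A]

section Quat

variable (I J : A)

/-- the centralizer of a pair -/
abbrev Cn : Subalgebra ℚ A := Subalgebra.centralizer ℚ {I, J}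

/-- evaluation of coordinates -/
def mk (c : NQ (Cn I J)) : A := c.c₀ + c.c₁ * I + c.c₂ * J + c.c₃ * (I * J)

variable {I J} (hI : I * I = -1) (hJ : J * J = -1) (hJI : J * I = -(I * J))

theorem cnI (b : Cn I J) : I * b = b * I := b.2 I (by simp)
theorem cnJ (b : Cn I J) : J * b = b * J := b.2 J (by simp)
theorem cnI' (b : Cn I J) (r : A) : I * (b * r) = b * (I * r) := by rw [← mul_assoc, cnI, mul_assoc]
theorem cnJ' (b : Cn I J) (r : A) : J * (b * r) = b * (J * r) := by rw [← mul_assoc, cnJ, mul_assoc]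

omit [Algebra ℚ A] in
include hI in
theorem qI (r : A) : I * (I * r) = -r := by rw [← mul_assoc, hI, neg_one_mul]

omit [Algebra ℚ A] in
include hJI in
theorem qJI (r : A) : J * (I * r) = -(I * (J * r)) := by rw [← mul_assoc, hJI, neg_mul, mul_assoc]

include hI hJ hJI

theorem mk_mul (c d : NQ (Cn I J)) : mk I J (c.mul d) = mk I J c * mk I J d := by
  simp only [mk, NQ.mul, Subalgebra.coe_add, Subalgebra.coe_sub, Subalgebra.coe_mul]
  simp only [mul_add, add_mul, mul_sub, sub_mul, neg_mul, mul_neg, smul_mul_assoc, mul_smul_comm, mul_assoc, one_mul, mul_one, mul_zero, zero_mul, cnI, cnJ, cnI', cnJ', hI, hJ, hJI, qI hI, qI hJ, qJI hJI, neg_neg]; module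

omit hI hJ hJI in
theorem mk_add (c d : NQ (Cn I J)) : mk I J (c.add d) = mk I J c + mk I J d := by
  simp only [mk, NQ.add, Subalgebra.coe_add]
  simp only [mul_add, add_mul, mul_sub, sub_mul, neg_mul, mul_neg, smul_mul_assoc, mul_smul_comm, mul_assoc, one_mul, mul_one, mul_zero, zero_mul]; module

omit hI hJ hJI in
theorem mk_sc (r : ℚ) : mk I J (sc r) = r • 1 := by simp [mk, sc]

theorem mk_ac (c d : NQ (Cn I J)) :
    mk I J (ac c d) = mk I J c * mk I J d + mk I J d * mk I J c := by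
  rw [ac, mk_add, mk_mul hI hJ hJI, mk_mul hI hJ hJI]

/-- projection onto the centralizer -/
def pr (a : A) : Cn I J := ⟨(1 / 4 : ℚ) • (a - I * a * I - J * a * J - I * J * a * (I * J)), by
  rintro _ (rfl | rfl)
  · simp only [mul_add, add_mul, mul_sub, sub_mul, neg_mul, mul_neg, smul_mul_assoc, mul_smul_comm, mul_assoc, one_mul, mul_one, mul_zero, zero_mul, hI, hJ, hJI, qI hI, qI hJ, qJI hJI, neg_neg]; module
  · simp only [mul_add, add_mul, mul_sub, sub_mul, neg_mul, mul_neg, smul_mul_assoc, mul_smul_comm, mul_assoc, one_mul, mul_one, mul_zero, zero_mul, hI, hJ, hJI, qI hI, qI hJ, qJI hJI, neg_neg]; module⟩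

/-- coordinates -/
def co (a : A) : NQ (Cn I J) :=
  ⟨pr hI hJ hJI a, pr hI hJ hJI (-(a * I)), pr hI hJ hJI (-(a * J)), pr hI hJ hJI (-(a * (I * J)))⟩

theorem mk_co (a : A) : mk I J (co hI hJ hJI a) = a := by
  simp only [mk, co, pr]
  simp only [mul_add, add_mul, mul_sub, sub_mul, neg_mul, mul_neg, smul_mul_assoc, mul_smul_comm, mul_assoc, one_mul, mul_one, mul_zero, zero_mul, hI, hJ, hJI, qI hI, qI hJ, qJI hJI, neg_neg]; module

theorem co_mk (c : NQ (Cn I J)) : co hI hJ hJI (mk I J c) = c := by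
  ext <;> simp only [mk, co, pr] <;>
  (simp only [mul_add, add_mul, mul_sub, sub_mul, neg_mul, mul_neg, smul_mul_assoc, mul_smul_comm, mul_assoc, one_mul, mul_one, mul_zero, zero_mul, cnI, cnJ, cnI', cnJ', hI, hJ, hJI, qI hI, qI hJ, qJI hJI, neg_neg]; module)

theorem mk_inj : Function.Injective (mk I J) := fun c d h => by
  rw [← co_mk hI hJ hJI c, h, co_mk]

end Quat

variable {ρ : G →* A} (hf : Fpf ρ)

/-- the square root of `-3` attached to an element of order three -/
def av (ρ : G →* A) (w : G) : A := (2 : ℚ) • ρ w + 1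

/-- trace -/
def tr (ρ : G →* A) (g : G) : A := ρ g + ρ g⁻¹

theorem o3 {w : G} (h : orderOf w = 3) : w ≠ 1 ∧ w ^ 3 = 1 :=
  ⟨by rintro rfl; simp at h, h ▸ pow_orderOf_eq_one w⟩

theorem av_conj (g w : G) : av ρ (g * w * g⁻¹) = ρ g * av ρ w * ρ g⁻¹ := by
  have : ρ g * ρ g⁻¹ = 1 := by rw [← map_mul]; simp
  simp only [av, map_mul]
  linear_combination (norm := ((try simp only [mul_add, add_mul, mul_sub, sub_mul, neg_mul, mul_neg, smul_mul_assoc, mul_smul_comm, mul_assoc, one_mul, mul_one, mul_zero, zero_mul]); module)) -this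

include hf

theorem Fpf.av_sq {w : G} (h : orderOf w = 3) : av ρ w * av ρ w = (-3 : ℚ) • 1 := by
  simp only [av]
  linear_combination (norm := ((try simp only [mul_add, add_mul, mul_sub, sub_mul, neg_mul, mul_neg, smul_mul_assoc, mul_smul_comm, mul_assoc, one_mul, mul_one, mul_zero, zero_mul]); module)) (4 : ℚ) • hf.three (o3 h).1 (o3 h).2

theorem Fpf.av_inv {w : G} (h : orderOf w = 3) : av ρ w⁻¹ = -av ρ w := by
  simp only [av, hf.three_inv (o3 h).1 (o3 h).2]
  module

theorem Fpf.ac_eq {x y : G} (hx : orderOf x = 3) (hy : orderOf y = 3) :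
    av ρ x * av ρ y + av ρ y * av ρ x = (4 : ℚ) • tr ρ (x * y) - (2 : ℚ) • 1 := by
  simp only [av, tr, mul_inv_rev, map_mul, hf.three_inv (o3 hx).1 (o3 hx).2,
    hf.three_inv (o3 hy).1 (o3 hy).2]
  simp only [mul_add, add_mul, mul_sub, sub_mul, neg_mul, mul_neg, smul_mul_assoc, mul_smul_comm, mul_assoc, one_mul, mul_one, mul_zero, zero_mul]; module

omit [Algebra ℚ A] in
theorem Fpf.tr_add {x y : G} (hx : orderOf x = 3) (hy : orderOf y = 3) :
    tr ρ (x * y⁻¹) = 1 - ρ (x * y) - ρ (x * y)⁻¹ := by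
  simp only [tr, mul_inv_rev, inv_inv, map_mul, hf.three_inv (o3 hx).1 (o3 hx).2,
    hf.three_inv (o3 hy).1 (o3 hy).2]
  noncomm_ring

omit hf [Algebra ℚ A] in
theorem rinv (g : G) : ρ g * ρ g⁻¹ = 1 := by rw [← map_mul]; simp

omit hf [Algebra ℚ A] in
theorem linv (g : G) : ρ g⁻¹ * ρ g = 1 := by rw [← map_mul]; simp

variable [Nontrivial A]

theorem Fpf.eq_one_of_tr {g : G} (h : tr ρ g = (2 : ℚ) • 1) : g = 1 := by
  by_contra hg
  have h1 := hf.cancel hg (a := 1 - ρ g⁻¹) (by simp only [tr] at h; linear_combination (norm := ((try simp only [mul_add, add_mul, mul_sub, sub_mul, neg_mul, mul_neg, smul_mul_assoc, mul_smul_comm, mul_assoc, one_mul, mul_one, mul_zero, zero_mul]); module)) h - rinv (ρ := ρ) g)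
  have h2 := hf g⁻¹ (inv_ne_one.mpr hg)
  rw [← neg_sub, h1, neg_zero] at h2
  exact not_isUnit_zero h2

omit [Nontrivial A] in
theorem Fpf.tr_six {g : G} (h : g ^ 6 = 1) : ∃ r : ℚ, tr ρ g = r • 1 ∧
    (r = 2 ∨ r = -1 ∨ r = 1 ∨ (r = -2 ∧ g ^ 2 = 1)) := by
  by_cases h1 : g = 1
  · exact ⟨2, by simp [tr, h1]; module, Or.inl rfl⟩
  by_cases h3 : g ^ 3 = 1
  · exact ⟨-1, by simp only [tr, hf.three_inv h1 h3]; module, Or.inr (Or.inl rfl)⟩
  by_cases h2 : g ^ 2 = 1
  · refine ⟨-2, ?_, Or.inr (Or.inr (Or.inr ⟨rfl, h2⟩))⟩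
    simp only [tr, hf.invol h1 h2, hf.invol (inv_ne_one.mpr h1) (by rw [inv_pow, h2, inv_one])]
    module
  have e3 := hf.invol h3 (by rw [← pow_mul, h])
  have e2 := hf.three h2 (by rw [← pow_mul, h])
  simp only [map_mul, pow_succ, pow_zero, one_mul] at e2 e3
  refine ⟨1, ?_, Or.inr (Or.inr (Or.inl rfl))⟩
  have hl : ∀ r, ρ g⁻¹ * (ρ g * r) = r := fun r => by rw [← mul_assoc, linv, one_mul]
  simp only [tr]
  linear_combination (norm := ((try simp only [mul_add, add_mul, mul_sub, sub_mul, neg_mul, mul_neg, smul_mul_assoc, mul_smul_comm, mul_assoc, one_mul, mul_one, mul_zero, zero_mul, hl, linv]); module)) ρ g⁻¹ * e2 - e3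

theorem Fpf.beta [Finite G] {x y : G} (hx : orderOf x = 3) (hy : orderOf y = 3) {β : A}
    (hβ : β = av ρ x * av ρ y + av ρ y * av ρ x) : β = (6 : ℚ) • 1 ∨ β = (-6 : ℚ) • 1 ∨
      β = (2 : ℚ) • 1 ∨ β = (-2 : ℚ) • 1 ∨ β * β = (20 : ℚ) • 1 := by
  rw [hf.ac_eq hx hy] at hβ
  have h1 := hf.order_of_tau (h := x * y⁻¹) (hf.tr_add hx hy)
  have h2 : (x * y) ^ 2 = 1 → x * y = 1 := fun h => by
    by_contra h'
    have e : ρ y = -ρ x⁻¹ := by
      have := hf.invol h' h
      rw [map_mul] at this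
      linear_combination (norm := ((try simp only [mul_add, add_mul, mul_sub, sub_mul, neg_mul, mul_neg, smul_mul_assoc, mul_smul_comm, mul_assoc, one_mul, mul_one, mul_zero, zero_mul, ← mul_assoc, linv]); module)) ρ x⁻¹ * this
    have e1 := hf.three (o3 hy).1 (o3 hy).2
    rw [e, hf.three_inv (o3 hx).1 (o3 hx).2] at e1
    have e2 := hf.three (o3 hx).1 (o3 hx).2
    have e3 : ρ x = -1 := by linear_combination (norm := ((try simp only [mul_add, add_mul, mul_sub, sub_mul, neg_mul, mul_neg, smul_mul_assoc, mul_smul_comm, mul_assoc, one_mul, mul_one, mul_zero, zero_mul]); module)) (1 / 2 : ℚ) • (e1 - e2)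
    rw [e3] at e2
    exact smul_one_ne (B := A) (r := 1) one_ne_zero (by linear_combination (norm := ((try simp only [mul_add, add_mul, mul_sub, sub_mul, neg_mul, mul_neg, smul_mul_assoc, mul_smul_comm, mul_assoc, one_mul, mul_one, mul_zero, zero_mul]); module)) e2)
  generalize x * y = g at *
  have hl : ∀ r, ρ g⁻¹ * (ρ g * r) = r := fun r => by rw [← mul_assoc, linv, one_mul]
  have h6 : g ^ 6 = 1 → β = (6 : ℚ) • 1 ∨ β = (-6 : ℚ) • 1 ∨
      β = (2 : ℚ) • 1 ∨ β = (-2 : ℚ) • 1 ∨ β * β = (20 : ℚ) • 1 := fun h => by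
    obtain ⟨r, h3, rfl | rfl | rfl | ⟨rfl, h4⟩⟩ := hf.tr_six h
    · exact Or.inl (by rw [hβ, h3]; module)
    · exact Or.inr (Or.inl (by rw [hβ, h3]; module))
    · exact Or.inr (Or.inr (Or.inl (by rw [hβ, h3]; module)))
    · rw [h2 h4] at hβ
      exact Or.inl (by rw [hβ]; simp only [tr, inv_one, map_one]; module)
  have hp : ∀ k, ¬ orderOf g ∣ k → g ^ k ≠ 1 := fun k h h' => h (orderOf_dvd_of_pow_eq_one h')
  rcases h1 with h1 | h1 | h1 | h1 | h1
  · exact h6 (orderOf_dvd_iff_pow_eq_one.mp (by simp [h1]))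
  · exact h6 (orderOf_dvd_iff_pow_eq_one.mp (by simp [h1]))
  · have e := hf.invol (hp 2 (by simp [h1])) (by rw [← pow_mul, ← pow_orderOf_eq_one g, h1])
    simp only [map_mul, pow_succ, pow_zero, one_mul] at e
    refine Or.inr (Or.inr (Or.inr (Or.inl ?_)))
    simp only [hβ, tr]
    linear_combination (norm := ((try simp only [mul_add, add_mul, mul_sub, sub_mul, neg_mul, mul_neg, smul_mul_assoc, mul_smul_comm, mul_assoc, one_mul, mul_one, mul_zero, zero_mul, hl, linv]); module)) (4 : ℚ) • (ρ g⁻¹ * e)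
  · exact h6 (orderOf_dvd_iff_pow_eq_one.mp (by simp [h1]))
  · have e := hf.invol (hp 5 (by simp [h1])) (by rw [← pow_mul, ← pow_orderOf_eq_one g, h1])
    have e' := hf.geom (hp 2 (by simp [h1])) (n := 5) (by rw [← pow_mul, ← pow_orderOf_eq_one g, h1])
    simp only [map_mul, pow_succ, pow_zero, one_mul, Finset.sum_range_succ, Finset.range_zero,
      Finset.sum_empty] at e e'
    refine Or.inr (Or.inr (Or.inr (Or.inr ?_)))
    simp only [hβ, tr]
    linear_combination (norm := ((try simp only [mul_add, add_mul, mul_sub, sub_mul, neg_mul, mul_neg, smul_mul_assoc, mul_smul_comm, mul_assoc, one_mul, mul_one, mul_zero, zero_mul, hl, linv, rinv]); module)) (16 : ℚ) • (ρ g⁻¹ * (ρ g⁻¹ * e') - ρ g⁻¹ * e - ρ g * e)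

theorem Fpf.eq_of_beta {x y : G} (hx : orderOf x = 3) (hy : orderOf y = 3)
    (h : av ρ x * av ρ y + av ρ y * av ρ x = (-6 : ℚ) • 1) : x = y := by
  rw [hf.ac_eq hx hy] at h
  refine mul_inv_eq_one.mp (hf.eq_one_of_tr ?_)
  rw [hf.tr_add hx hy]
  simp only [tr] at h
  linear_combination (norm := module) (-1 / 4 : ℚ) • h

theorem Fpf.exists_pair [Finite G] {x y : G} (hx : orderOf x = 3) (hy : orderOf y = 3)
    (h1 : x ≠ y) (h2 : x ≠ y⁻¹) :
    ∃ y, orderOf y = 3 ∧ av ρ x * av ρ y + av ρ y * av ρ x = (-2 : ℚ) • 1 := by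
  have hy' : orderOf y⁻¹ = 3 := by rwa [orderOf_inv]
  rcases hf.beta hx hy rfl with h | h | h | h | h
  · exact absurd (hf.eq_of_beta hx hy' (by rw [hf.av_inv hy]; linear_combination (norm := ((try simp only [mul_add, add_mul, mul_sub, sub_mul, neg_mul, mul_neg, smul_mul_assoc, mul_smul_comm, mul_assoc, one_mul, mul_one, mul_zero, zero_mul]); module)) -h)) h2
  · exact absurd (hf.eq_of_beta hx hy h) h1
  · exact ⟨y⁻¹, hy', by rw [hf.av_inv hy]; linear_combination (norm := ((try simp only [mul_add, add_mul, mul_sub, sub_mul, neg_mul, mul_neg, smul_mul_assoc, mul_smul_comm, mul_assoc, one_mul, mul_one, mul_zero, zero_mul]); module)) -h⟩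
  · exact ⟨y, hy, h⟩
  · refine ⟨y * x * y⁻¹, by rwa [H9.orderOf_conj_eq], ?_⟩
    have ea := hf.av_sq hx
    have eb := hf.av_sq hy
    have e1 : ρ y = (1 / 2 : ℚ) • (av ρ y - 1) := by simp only [av]; module
    have e2 : ρ y⁻¹ = (1 / 2 : ℚ) • (-av ρ y - 1) := by rw [← hf.av_inv hy]; simp only [av]; module
    rw [av_conj, e1, e2]
    generalize av ρ x = a at *
    generalize av ρ y = b at *
    have ea' : ∀ r, a * (a * r) = (-3 : ℚ) • r := fun r => by rw [← mul_assoc, ea]; simp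
    have eb' : ∀ r, b * (b * r) = (-3 : ℚ) • r := fun r => by rw [← mul_assoc, eb]; simp
    linear_combination (norm := ((try simp only [mul_add, add_mul, mul_sub, sub_mul, neg_mul, mul_neg, smul_mul_assoc, mul_smul_comm, mul_assoc, one_mul, mul_one, mul_zero, zero_mul, ea, eb, ea', eb']); module)) (-1 / 4 : ℚ) • h

theorem Fpf.quat [Finite G] {x y : G} (hx : orderOf x = 3) (hy : orderOf y = 3)
    (h : av ρ x * av ρ y + av ρ y * av ρ x = (-2 : ℚ) • 1) :
    {w : G | orderOf w = 3}.ncard ≤ 8 ∨ ({w : G | orderOf w = 3}.ncard ≤ 20 ∧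
      ∃ w f z : G, orderOf w = 3 ∧ f ≠ 1 ∧ f ^ 5 = 1 ∧ ρ z = -1 ∧ (w * f) ^ 2 = z) := by
  have eX := hf.three (o3 hx).1 (o3 hx).2
  have eY := hf.three (o3 hy).1 (o3 hy).2
  have eX' := hf.three_inv (o3 hx).1 (o3 hx).2
  have eY' := hf.three_inv (o3 hy).1 (o3 hy).2
  obtain ⟨i, hi⟩ : ∃ i, i = x * y := ⟨_, rfl⟩
  obtain ⟨j, hj⟩ : ∃ j, j = x * i * x⁻¹ := ⟨_, rfl⟩
  have eYX : ρ y * ρ x = -(ρ x * ρ y) - ρ x - ρ y - 1 := by
    simp only [av] at h
    linear_combination (norm := ((try simp only [mul_add, add_mul, mul_sub, sub_mul, neg_mul, mul_neg, smul_mul_assoc, mul_smul_comm, mul_assoc, one_mul, mul_one, mul_zero, zero_mul]); module)) (1 / 4 : ℚ) • h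
  have eX2 : ∀ r, ρ x * (ρ x * r) = -(ρ x * r) - r := fun r => by
    rw [← mul_assoc, eX]; noncomm_ring
  have eY2 : ∀ r, ρ y * (ρ y * r) = -(ρ y * r) - r := fun r => by
    rw [← mul_assoc, eY]; noncomm_ring
  have eYX2 : ∀ r, ρ y * (ρ x * r) = -(ρ x * (ρ y * r)) - ρ x * r - ρ y * r - r := fun r => by
    rw [← mul_assoc, eYX]; noncomm_ring
  have ei : ρ i = ρ x * ρ y := by rw [hi, map_mul]
  have ej : ρ j = ρ y - ρ x := by
    rw [hj, map_mul, map_mul, ei, eX']; simp only [mul_add, add_mul, mul_sub, sub_mul, neg_mul, mul_neg, smul_mul_assoc, mul_smul_comm, mul_assoc, one_mul, mul_one, mul_zero, zero_mul, eX, eY, eYX, eX2, eY2, eYX2]; module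
  have hI : ρ i * ρ i = -1 := by rw [ei]; simp only [mul_add, add_mul, mul_sub, sub_mul, neg_mul, mul_neg, smul_mul_assoc, mul_smul_comm, mul_assoc, one_mul, mul_one, mul_zero, zero_mul, eX, eY, eYX, eX2, eY2, eYX2]; module
  have hJ : ρ j * ρ j = -1 := by rw [ej]; simp only [mul_add, add_mul, mul_sub, sub_mul, neg_mul, mul_neg, smul_mul_assoc, mul_smul_comm, mul_assoc, one_mul, mul_one, mul_zero, zero_mul, eX, eY, eYX, eX2, eY2, eYX2]; module
  have hJI : ρ j * ρ i = -(ρ i * ρ j) := by rw [ei, ej]; simp only [mul_add, add_mul, mul_sub, sub_mul, neg_mul, mul_neg, smul_mul_assoc, mul_smul_comm, mul_assoc, one_mul, mul_one, mul_zero, zero_mul, eX, eY, eYX, eX2, eY2, eYX2]; module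
  have hX : ρ x = (-1 / 2 : ℚ) • (1 + ρ i + ρ j + ρ i * ρ j) := by
    rw [ei, ej]; simp only [mul_add, add_mul, mul_sub, sub_mul, neg_mul, mul_neg, smul_mul_assoc, mul_smul_comm, mul_assoc, one_mul, mul_one, mul_zero, zero_mul, eX, eY, eYX, eX2, eY2, eYX2]; module
  have hX' : ρ x⁻¹ = (-1 / 2 : ℚ) • (1 - ρ i - ρ j - ρ i * ρ j) := by
    rw [eX', hX]; module
  have hi' : ρ i⁻¹ = -ρ i := by linear_combination (norm := ((try simp only [mul_add, add_mul, mul_sub, sub_mul, neg_mul, mul_neg, smul_mul_assoc, mul_smul_comm, mul_assoc, one_mul, mul_one, mul_zero, zero_mul, ← mul_assoc, linv]); module)) ρ i⁻¹ * hI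
  have hj' : ρ j⁻¹ = -ρ j := by linear_combination (norm := ((try simp only [mul_add, add_mul, mul_sub, sub_mul, neg_mul, mul_neg, smul_mul_assoc, mul_smul_comm, mul_assoc, one_mul, mul_one, mul_zero, zero_mul, ← mul_assoc, linv]); module)) ρ j⁻¹ * hJ
  clear eX eY eX' eY' eYX eX2 eY2 eYX2 ei ej h hy hi hj y
  have inj := mk_inj hI hJ hJI
  have hmul := mk_mul hI hJ hJI
  have hac := mk_ac hI hJ hJI
  have htr : ∀ w, orderOf w = 3 → ∀ g, ρ g⁻¹ = -ρ g →
      ρ g * av ρ w + av ρ w * ρ g = (2 : ℚ) • tr ρ (g * w) := fun w hw g hg => by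
    simp only [tr, av, mul_inv_rev, map_mul, hg, hf.three_inv (o3 hw).1 (o3 hw).2]
    simp only [mul_add, add_mul, mul_sub, sub_mul, neg_mul, mul_neg, smul_mul_assoc, mul_smul_comm, mul_assoc, one_mul, mul_one, mul_zero, zero_mul]; module
  let R : NQ (Cn (ρ i) (ρ j)) → Prop := fun c => ∃ w, orderOf w = 3 ∧ mk _ _ c = av ρ w
  have S : Sys R :=
    { sq := by
        rintro c ⟨w, hw, e⟩
        exact inj (by rw [hmul, e, mk_sc, hf.av_sq hw])
      pair := by
        rintro c d ⟨w, hw, e⟩ ⟨v, hv, e'⟩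
        have := hf.beta hw hv (β := mk _ _ (ac c d)) (by rw [hac, e, e'])
        simp only [← mk_sc (I := ρ i) (J := ρ j), ← hmul, inj.eq_iff] at this
        exact this
      eq := by
        rintro c d ⟨w, hw, e⟩ ⟨v, hv, e'⟩ h
        obtain rfl := hf.eq_of_beta hw hv (by rw [← e, ← e', ← hac, h, mk_sc])
        exact inj (e.trans e'.symm)
      one := ⟨x⁻¹, by rwa [orderOf_inv], by simp only [mk, av, hX']; simp; module⟩
      neg := by
        rintro a b c d ⟨w, hw, e⟩
        refine ⟨w⁻¹, by rwa [orderOf_inv], ?_⟩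
        rw [hf.av_inv hw, ← e]
        simp only [mk, Subalgebra.coe_neg]
        simp only [mul_add, add_mul, mul_sub, sub_mul, neg_mul, mul_neg, smul_mul_assoc, mul_smul_comm, mul_assoc, one_mul, mul_one, mul_zero, zero_mul]; module
      sgn := by
        rintro a b c d ⟨w, hw, e⟩
        refine ⟨i * w * i⁻¹, by rwa [H9.orderOf_conj_eq], ?_⟩
        rw [av_conj, ← e, hi']
        simp only [mk, Subalgebra.coe_neg]
        simp only [mul_add, add_mul, mul_sub, sub_mul, neg_mul, mul_neg, smul_mul_assoc, mul_smul_comm, mul_assoc, one_mul, mul_one, mul_zero, zero_mul, cnI, cnJ, cnI', cnJ', hI, hJ, hJI, qI hI, qI hJ, qJI hJI, neg_neg]; module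
      cyc := by
        rintro a b c d ⟨w, hw, e⟩
        refine ⟨x * w * x⁻¹, by rwa [H9.orderOf_conj_eq], ?_⟩
        rw [av_conj, ← e, hX', hX]
        simp only [mk]
        simp only [mul_add, add_mul, mul_sub, sub_mul, neg_mul, mul_neg, smul_mul_assoc, mul_smul_comm, mul_assoc, one_mul, mul_one, mul_zero, zero_mul, cnI, cnJ, cnI', cnJ', hI, hJ, hJI, qI hI, qI hJ, qJI hJI, neg_neg]; module
      tau := by
        rintro c ⟨w, hw, e⟩
        have h1 : mk _ _ (ac ⟨0, 1, 0, 0⟩ c) = (2 : ℚ) • tr ρ (i * w) := by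
          rw [hac, e, ← htr w hw i hi']; simp [mk]
        by_cases h6 : (i * w) ^ 6 = 1
        · obtain ⟨r, hr, -⟩ := hf.tr_six h6
          rw [hr, smul_smul, ← mk_sc (I := ρ i) (J := ρ j), inj.eq_iff] at h1
          have h2 := congrArg NQ.c₁ h1
          simp only [ac, NQ.mul, NQ.add, sc] at h2
          exact Or.inl (by linear_combination (norm := ((try simp only [mul_add, add_mul, mul_sub, sub_mul, neg_mul, mul_neg, smul_mul_assoc, mul_smul_comm, mul_assoc, one_mul, mul_one, mul_zero, zero_mul]); module)) (1 / 2 : ℚ) • h2)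
        · refine Or.inr fun y hy => inj ?_
          have h2 := congrArg (mk _ _) hy
          rw [hmul, mk_add, hmul, h1, mk_sc, mk_sc, zero_smul] at h2
          rw [mk_sc, zero_smul]
          refine hf.cancel h6 ?_
          generalize i * w = g at *
          have hr : ∀ r, ρ g * (ρ g⁻¹ * r) = r := fun r => by rw [← mul_assoc, rinv, one_mul]
          have hl : ∀ r, ρ g⁻¹ * (ρ g * r) = r := fun r => by rw [← mul_assoc, linv, one_mul]
          simp only [tr] at h2
          simp only [map_mul, pow_succ, pow_zero, one_mul]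
          linear_combination (norm := ((try simp only [mul_add, add_mul, mul_sub, sub_mul, neg_mul, mul_neg, smul_mul_assoc, mul_smul_comm, mul_assoc, one_mul, mul_one, mul_zero, zero_mul, hr, hl]); module)) (1 / 4 : ℚ) • ((ρ g * ρ g - 1) * ρ g * ρ g * h2) }
  have card : ∀ T : List (NQ (Cn (ρ i) (ρ j))), (∀ c, R c → c ∈ T) →
      {w : G | orderOf w = 3}.ncard ≤ T.length := fun T hT => by
    classical
    refine le_trans ?_ T.toFinset_card_le
    rw [← Set.ncard_coe_finset]
    refine Set.ncard_le_ncard_of_injOn (fun w => co hI hJ hJI (av ρ w))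
      (fun w hw => by simpa using hT _ ⟨w, hw, mk_co hI hJ hJI _⟩) fun w _ v _ e => hf.inj ?_
    have := congrArg (mk _ _) e
    simp only [mk_co, av] at this
    linear_combination (norm := module) (1 / 2 : ℚ) • this
  rcases S.main with ⟨T, h1, h2⟩ | ⟨φ, h0, ⟨w, hw, e⟩, T, h1, h2⟩
  · exact Or.inl (h1 ▸ card T h2)
  refine Or.inr ⟨h1 ▸ card T h2, w⁻¹, j * w, w⁻¹ * (j * j) * w, by rwa [orderOf_inv], ?_, ?_, ?_, ?_⟩
  · intro h
    have h3 := hf.three (o3 hw).1 (o3 hw).2
    rw [eq_inv_of_mul_eq_one_right h, hj'] at h3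
    have h4 : ρ j = 0 := by linear_combination (norm := ((try simp only [mul_add, add_mul, mul_sub, sub_mul, neg_mul, mul_neg, smul_mul_assoc, mul_smul_comm, mul_assoc, one_mul, mul_one, mul_zero, zero_mul]); module)) hJ - h3
    rw [h4] at hJ
    exact smul_one_ne (B := A) (r := 1) one_ne_zero (by linear_combination (norm := ((try simp only [mul_add, add_mul, mul_sub, sub_mul, neg_mul, mul_neg, smul_mul_assoc, mul_smul_comm, mul_assoc, one_mul, mul_one, mul_zero, zero_mul]); module)) hJ)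
  · have h3 : tr ρ (j * w) = -φ := by
      have := htr w hw j hj'
      rw [← e] at this
      simp only [mk, Subalgebra.coe_sub, Subalgebra.coe_one, Subalgebra.coe_zero] at this
      linear_combination (norm := ((try simp only [mul_add, add_mul, mul_sub, sub_mul, neg_mul, mul_neg, smul_mul_assoc, mul_smul_comm, mul_assoc, one_mul, mul_one, mul_zero, zero_mul, cnI, cnJ, cnI', cnJ', hI, hJ, hJI, qI hI, qI hJ, qJI hJI, neg_neg]); module)) (-1 / 2 : ℚ) • this
    have h4 : tr ρ (j * w) * tr ρ (j * w) + tr ρ (j * w) - 1 = 0 := by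
      have : (φ : A) * φ = φ + 1 := congrArg Subtype.val h0
      rw [h3]; linear_combination (norm := ((try simp only [mul_add, add_mul, mul_sub, sub_mul, neg_mul, mul_neg, smul_mul_assoc, mul_smul_comm, mul_assoc, one_mul, mul_one, mul_zero, zero_mul]); module)) this
    apply hf.inj
    generalize j * w = g at *
    have hr : ∀ r, ρ g * (ρ g⁻¹ * r) = r := fun r => by rw [← mul_assoc, rinv, one_mul]
    simp only [tr] at h4
    simp only [map_mul, pow_succ, pow_zero, one_mul, map_one]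
    linear_combination (norm := ((try simp only [mul_add, add_mul, mul_sub, sub_mul, neg_mul, mul_neg, smul_mul_assoc, mul_smul_comm, mul_assoc, one_mul, mul_one, mul_zero, zero_mul, hr, rinv, linv]); module)) (ρ g - 1) * ρ g * ρ g * h4
  · simp only [map_mul, hJ]
    linear_combination (norm := ((try simp only [mul_add, add_mul, mul_sub, sub_mul, neg_mul, mul_neg, smul_mul_assoc, mul_smul_comm, mul_assoc, one_mul, mul_one, mul_zero, zero_mul]); module)) -linv (ρ := ρ) w
  · rw [pow_two]; group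

theorem Fpf.card_three [Finite G] :
    {w : G | orderOf w = 3}.ncard ≤ 8 ∨ ({w : G | orderOf w = 3}.ncard ≤ 20 ∧
      ∃ w f z : G, orderOf w = 3 ∧ f ≠ 1 ∧ f ^ 5 = 1 ∧ ρ z = -1 ∧ (w * f) ^ 2 = z) := by
  by_cases h : ∃ x y : G, orderOf x = 3 ∧ orderOf y = 3 ∧ x ≠ y ∧ x ≠ y⁻¹
  · obtain ⟨x, y, hx, hy, h1, h2⟩ := h
    obtain ⟨y, hy, h⟩ := hf.exists_pair hx hy h1 h2
    exact hf.quat hx hy h
  left
  rcases {w : G | orderOf w = 3}.eq_empty_or_nonempty with h1 | ⟨y, hy⟩
  · simp [h1]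
  refine (Set.ncard_le_ncard (t := {y, y⁻¹}) (fun x hx => ?_)).trans
    ((Set.ncard_insert_le _ _).trans (by simp))
  by_contra h2
  exact h ⟨x, y, hx, hy, fun e => h2 (Or.inl e), fun e => h2 (Or.inr e)⟩

end Cfsg.Agent.L0.Frob
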